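import Cfsg.Agent.H925.ExtBase

/-!
# Overgroups of `Ω(V, QK)` in `Ω(V, τ ∘ QK)`, V: normalising `K`

* `selfadj_scalar` : an `F`-linear self-adjoint map preserving all singular `K`-lines is the multiplication
  by an element of `K`;
* `exists_not_line` : an isometry which does not normalise `K` maps some singular `K`-line to an
  `F`-subspace which is not a `K`-line.
-/

set_option autoImplicit false
set_option linter.unusedSectionVars false

namespace Cfsg.Agent.H925.Ext

open QuadraticMap Cfsg.Agent.LieClassical.OrthCore Cfsg.Agent.LieClassical.OrthTrans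
  Cfsg.Agent.H883.Root Cfsg.Agent.H883.Sub

variable {F K V : Type*} [Field F] [Field K] [Algebra F K] [AddCommGroup V]
  [Module F V] [Module K V] [IsScalarTower F K V]

variable {τ : K →ₗ[F] F} {QK : QuadraticForm K V} {Q : QuadraticForm F V}

theorem exists_perp_nonsing (hQ : Nondeg QK) (hd : 3 ≤ Module.finrank K V) {u v : V}
    (hyp : Hyp QK u v) : ∃ w, polar QK u w = 0 ∧ polar QK v w = 0 ∧ QK w ≠ 0 := by
  obtain ⟨a, c, h1, h2, h3, h4, h5⟩ := exists_perp2 hQ hd hyp
  rcases exists_nonsing h5 with h | h | h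
  · exact ⟨a, h1, h2, h⟩
  · exact ⟨c, h3, h4, h⟩
  · exact ⟨a + c, by rw [polar_add_right, h1, h3, add_zero], by rw [polar_add_right, h2, h4, add_zero],
      h⟩

theorem selfadj_pair (h : Tr τ QK Q) (hQ : Nondeg QK) (hd : 3 ≤ Module.finrank K V)
    (h2 : (2 : K) ≠ 0) {T : V →ₗ[F] V} (hT : ∀ x y, polar Q (T x) y = polar Q x (T y))
    (hs : ∀ v, QK v = 0 → ∃ k : K, T v = k • v) {u v : V} (hyp : Hyp QK u v) :
    ∃ c : K, ∀ t : K, T (t • u) = (c * t) • u ∧ T (t • v) = (c * t) • v := by
  have hsu : ∀ t : K, ∃ γ : K, T (t • u) = γ • u := by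
    intro t
    obtain ⟨k, hk⟩ := hs (t • u) (by rw [QuadraticMap.map_smul, hyp.left, smul_zero])
    exact ⟨k * t, by rw [hk, mul_smul]⟩
  have hsv : ∀ t : K, ∃ γ : K, T (t • v) = γ • v := by
    intro t
    obtain ⟨k, hk⟩ := hs (t • v) (by rw [QuadraticMap.map_smul, hyp.right, smul_zero])
    exact ⟨k * t, by rw [hk, mul_smul]⟩
  choose γ hγ using hsu
  choose δ hδ using hsv
  have hδadd : ∀ a b : K, δ (a + b) = δ a + δ b := by
    intro a b
    have h1 : (δ (a + b)) • v = (δ a + δ b) • v := by
      rw [← hδ, add_smul, map_add, hδ, hδ, add_smul]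
    exact smul_left_injective K hyp.right_ne h1
  obtain ⟨w₀, hw1, hw2, hw0⟩ := exists_perp_nonsing hQ hd hyp
  set c₀ := QK w₀ with hc₀
  -- the identity for `q = c₀ θ²`
  have key : ∀ θ t : K, τ (δ (c₀ * (θ * θ) * t)) = τ (γ t * (c₀ * (θ * θ))) := by
    intro θ t
    set q := c₀ * (θ * θ) with hq
    have hw1' : polar QK u (θ • w₀) = 0 := by rw [polar_smul_right, hw1, smul_zero]
    have hw2' : polar QK v (θ • w₀) = 0 := by rw [polar_smul_right, hw2, smul_zero]
    have hqw : QK (θ • w₀) = q := by rw [QuadraticMap.map_smul, smul_eq_mul, hq]; ring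
    have hz : QK (u + θ • w₀ - q • v) = 0 := by
      rw [← hqw]
      exact sing_vec hyp hw1' hw2'
    set z := u + θ • w₀ - q • v with hzdef
    have huz : polar QK u z = -q := by
      rw [hzdef, polar_sub_right, polar_add_right, hyp.polar_left, hw1', polar_smul_right, hyp.pair]
      simp
    have hvz : polar QK v z = 1 := by
      rw [hzdef, polar_sub_right, polar_add_right, hyp.pair', hw2', polar_smul_right,
        hyp.polar_right]
      simp
    obtain ⟨k, hk⟩ := hs z hz
    have h3 : polar Q (T (t • u + (q * t) • v)) z = 0 := by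
      rw [hT, hk, h.pol, polar_smul_right, polar_add_left, polar_smul_left, polar_smul_left, huz,
        hvz]
      have : k • (t • -q + (q * t) • (1 : K)) = 0 := by
        simp only [smul_eq_mul]; ring
      rw [this, map_zero]
    rw [map_add, hγ, hδ, h.pol, polar_add_left, polar_smul_left, polar_smul_left, huz, hvz,
      smul_eq_mul, smul_eq_mul, mul_one, mul_neg, map_add, map_neg] at h3
    linear_combination h3
  have key2 : ∀ q t : K, τ (δ (q * t)) = τ (γ t * q) := by
    intro q t
    have h2F : (2 : F) ≠ 0 := by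
      intro h0
      apply h2
      have := congrArg (algebraMap F K) h0
      rwa [map_ofNat, map_zero] at this
    set θ := q * c₀⁻¹ with hθ
    have k1 := key (θ + 1) t
    have k2 := key θ t
    have k3 := key 1 t
    have e1 : c₀ * ((θ + 1) * (θ + 1)) * t = (c₀ * (θ * θ) * t + c₀ * (1 * 1) * t) +
        (q * t + q * t) := by
      rw [hθ]; field_simp; ring
    have e2 : γ t * (c₀ * ((θ + 1) * (θ + 1))) = (γ t * (c₀ * (θ * θ)) + γ t * (c₀ * (1 * 1))) +
        (γ t * q + γ t * q) := by
      rw [hθ]; field_simp; ring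
    rw [e1, e2, hδadd, hδadd, hδadd (q * t)] at k1
    simp only [map_add] at k1
    rw [k2, k3] at k1
    have k4 : (2 : F) * τ (δ (q * t)) = 2 * τ (γ t * q) := by linear_combination k1
    exact mul_left_cancel₀ h2F k4
  refine ⟨γ 1, fun t => ?_⟩
  have hγt : ∀ t, γ t = γ 1 * t := by
    intro t
    apply tau_ext' h.ne
    intro k
    have k1 := key2 k t
    have k2 := key2 (k * t) 1
    rw [mul_one] at k2
    rw [mul_comm k (γ t), ← k1, k2]
    congr 1
    ring
  have hδt : δ t = γ 1 * t := by
    apply tau_ext' h.ne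
    intro k
    have h3 := hT (k • u) (t • v)
    rw [hγ, hδ, h.pol, h.pol, polar_smul_left, polar_smul_right, polar_smul_left, polar_smul_right,
      hyp.pair] at h3
    simp only [smul_eq_mul, mul_one] at h3
    rw [← h3, hγt]
    congr 1
    ring
  exact ⟨by rw [hγ, hγt], by rw [hδ, hδt]⟩

/-- **Self-adjoint maps preserving the singular `K`-lines.** -/
theorem selfadj_scalar (h : Tr τ QK Q) (hQ : Nondeg QK) (hd : 3 ≤ Module.finrank K V)
    (h2 : (2 : K) ≠ 0) {T : V →ₗ[F] V} (hT : ∀ x y, polar Q (T x) y = polar Q x (T y))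
    (hs : ∀ v, QK v = 0 → ∃ k : K, T v = k • v) {u v : V} (hyp : Hyp QK u v) :
    ∃ c : K, ∀ x, T x = c • x := by
  obtain ⟨c, hc⟩ := selfadj_pair h hQ hd h2 hT hs hyp
  have hcu : T u = c • u := by
    have := (hc 1).1
    rwa [one_smul, mul_one] at this
  have hcv : T v = c • v := by
    have := (hc 1).2
    rwa [one_smul, mul_one] at this
  -- a vector not orthogonal to a vector with the right eigenvalue
  have key : ∀ a z : V, QK a = 0 → T a = c • a → QK z = 0 → polar QK a z ≠ 0 → T z = c • z := by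
    intro a z ha hTa hz haz
    have hyp' : Hyp QK a ((polar QK a z)⁻¹ • z) :=
      ⟨ha, by rw [QuadraticMap.map_smul, hz, smul_zero],
        by rw [polar_smul_right, smul_eq_mul, inv_mul_cancel₀ haz]⟩
    obtain ⟨c', hc'⟩ := selfadj_pair h hQ hd h2 hT hs hyp'
    have e1 : c' = c := by
      have h3 := (hc' 1).1
      rw [one_smul, mul_one, hTa] at h3
      exact (smul_left_injective K hyp'.left_ne h3).symm
    have h4 := (hc' (polar QK a z)).2
    rwa [smul_smul, mul_inv_cancel₀ haz, one_smul, smul_smul, mul_assoc, mul_inv_cancel₀ haz,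
      mul_one, e1] at h4
  have hsing : ∀ z, QK z = 0 → T z = c • z := by
    intro z hz
    by_cases h3 : polar QK u z = 0
    · by_cases h4 : polar QK v z = 0
      · have h5 : QK (u + z) = 0 := by rw [Q_add, hyp.left, hz, h3]; simp
        have h6 : polar QK v (u + z) ≠ 0 := by
          rw [polar_add_right, hyp.pair', h4, add_zero]
          exact one_ne_zero
        have h7 := key v (u + z) hyp.right hcv h5 h6
        rw [map_add, hcu, smul_add] at h7
        exact add_left_cancel h7
      · exact key v z hyp.right hcv hz h4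
    · exact key u z hyp.left hcu hz h3
  exact ⟨c, fun x => sing_induction hyp (P := fun x => T x = c • x)
    (fun a b ha hb => by rw [map_add, ha, hb, smul_add]) hsing x⟩

/-- `g` normalises `K`. -/
def NormK (K : Type*) {F V : Type*} [Field F] [Field K] [Algebra F K] [AddCommGroup V]
    [Module F V] [Module K V] (g : V ≃ₗ[F] V) : Prop :=
  ∀ k : K, ∃ c : K, ∀ x, g⁻¹ (k • g x) = c • x

/-- An isometry which does not normalise `K` moves some singular `K`-line to a subspace which is not a
`K`-line. -/
theorem exists_not_line [Finite K] (h : Tr τ QK Q) (hQ : Nondeg QK) (hd : 3 ≤ Module.finrank K V)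
    (h2 : (2 : K) ≠ 0) {u v : V} (hyp : Hyp QK u v) {g : V ≃ₗ[F] V} (hg : g ∈ O Q)
    (hgK : ¬ NormK K g) : ∃ (v : V) (k : K), QK v = 0 ∧ v ≠ 0 ∧ g (k • v) ∉ line F K (g v) := by
  by_contra hcon
  push Not at hcon
  apply hgK
  intro k
  have hg1 : ∀ x, g (g⁻¹ x) = x := fun x => LinearEquiv.apply_symm_apply g x
  have hg2 : ∀ x, g⁻¹ (g x) = x := fun x => LinearEquiv.symm_apply_apply g x
  let T : V →ₗ[F] V :=
    { toFun := fun x => g⁻¹ (k • g x)
      map_add' := fun x y => by rw [map_add, smul_add, map_add]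
      map_smul' := fun c x => by
        show g⁻¹ (k • g (c • x)) = c • g⁻¹ (k • g x)
        rw [LinearEquiv.map_smul g, smul_comm k c (g x), LinearEquiv.map_smul] }
  have hTapp : ∀ x, T x = g⁻¹ (k • g x) := fun x => rfl
  have hTs : ∀ x y, polar Q (T x) y = polar Q x (T y) := by
    intro x y
    rw [hTapp, hTapp, ← polar_map hg, hg1, ← polar_map hg x, hg1, h.pol, h.pol, polar_smul_left,
      polar_smul_right]
  have hs : ∀ v, QK v = 0 → ∃ c : K, T v = c • v := by
    intro v hv
    by_cases hv0 : v = 0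
    · exact ⟨0, by rw [hv0, map_zero, smul_zero]⟩
    have hgv0 : g v ≠ 0 := fun h0 => hv0 (by rw [← hg2 v, h0, map_zero])
    have h3 : ∀ k : K, ∃ k' : K, k' • g v = g (k • v) := fun k => mem_line.1 (hcon v k hv hv0)
    choose f hf using h3
    have hinj : Function.Injective f := by
      intro a b hab
      have : g (a • v) = g (b • v) := by rw [← hf, ← hf, hab]
      exact smul_left_injective K hv0 (g.injective this)
    obtain ⟨c, hc⟩ := (Finite.injective_iff_surjective.1 hinj) k
    refine ⟨c, ?_⟩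
    rw [hTapp]
    apply g.injective
    rw [hg1, ← hf, hc]
  obtain ⟨c, hc⟩ := selfadj_scalar h hQ hd h2 hTs hs hyp
  exact ⟨c, hc⟩

end Cfsg.Agent.H925.Ext
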