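import Cfsg.Agent.H925.ExtCore
import Cfsg.Agent.H925.ExtNorm

/-!
# Overgroups of `Ω(V, QK)` in `Ω(V, τ ∘ QK)`, VI: points and adjacency

The points are the images under `H` of the singular `K`-lines.
-/

set_option autoImplicit false
set_option linter.unusedSectionVars false

namespace Cfsg.Agent.H925.Ext

open QuadraticMap Cfsg.Agent.LieClassical.OrthCore Cfsg.Agent.LieClassical.OrthTrans
  Cfsg.Agent.LieClassical.OrthFinite Cfsg.Agent.H883.Root Cfsg.Agent.H883.Sub

variable {F K V : Type*} [Field F] [Field K] [Algebra F K] [AddCommGroup V]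
  [Module F V] [Module K V] [IsScalarTower F K V]

variable {τ : K →ₗ[F] F} {QK : QuadraticForm K V} {Q : QuadraticForm F V}
  {H : Subgroup (V ≃ₗ[F] V)}

/-- The basic hypotheses. -/
structure Pre (τ : K →ₗ[F] F) (QK : QuadraticForm K V) (Q : QuadraticForm F V)
    (H : Subgroup (V ≃ₗ[F] V)) : Prop where
  tr : Tr τ QK Q
  nondeg : Nondeg QK
  hHO : H ≤ O Q
  hE : ∀ g ∈ E QK, (rs g : V ≃ₗ[F] V) ∈ H

/-- The points: the images under `H` of the singular `K`-lines. -/
def IsPoint (QK : QuadraticForm K V) (H : Subgroup (V ≃ₗ[F] V)) (X : Submodule F V) : Prop :=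
  ∃ g ∈ H, ∃ v, QK v = 0 ∧ v ≠ 0 ∧ X = (line F K v).map (g : V →ₗ[F] V)

theorem map_mul' (X : Submodule F V) (g h : V ≃ₗ[F] V) :
    X.map ((g * h : V ≃ₗ[F] V) : V →ₗ[F] V) = (X.map (h : V →ₗ[F] V)).map (g : V →ₗ[F] V) := by
  rw [← Submodule.map_comp]; rfl

theorem map_inv_map (X : Submodule F V) (g : V ≃ₗ[F] V) :
    (X.map (g : V →ₗ[F] V)).map ((g⁻¹ : V ≃ₗ[F] V) : V →ₗ[F] V) = X := by
  rw [← map_mul', inv_mul_cancel]
  exact Submodule.map_id X

theorem IsPoint.map {X : Submodule F V} (hX : IsPoint QK H X) {g : V ≃ₗ[F] V} (hg : g ∈ H) :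
    IsPoint QK H (X.map (g : V →ₗ[F] V)) := by
  obtain ⟨g', hg', v, hv, hv0, rfl⟩ := hX
  exact ⟨g * g', H.mul_mem hg hg', v, hv, hv0, by rw [map_mul']⟩

theorem isPoint_line {v : V} (hv : QK v = 0) (hv0 : v ≠ 0) : IsPoint QK H (line F K v) :=
  ⟨1, H.one_mem, v, hv, hv0, (Submodule.map_id _).symm⟩

theorem IsPoint.exists_line {X : Submodule F V} (hX : IsPoint QK H X) :
    ∃ g ∈ H, ∃ v, QK v = 0 ∧ v ≠ 0 ∧ X.map (g : V →ₗ[F] V) = line F K v := by
  obtain ⟨g', hg', v, hv, hv0, rfl⟩ := hX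
  exact ⟨g'⁻¹, H.inv_mem hg', v, hv, hv0, map_inv_map _ _⟩

theorem IsPoint.finrank [FiniteDimensional F K] {X : Submodule F V} (hX : IsPoint QK H X) :
    Module.finrank F X = Module.finrank F K := by
  obtain ⟨g', hg', v, hv, hv0, rfl⟩ := hX
  rw [← finrank_line (F := F) (K := K) hv0]
  exact LinearEquiv.finrank_map_eq g' _

theorem IsPoint.sing (hP : Pre τ QK Q H) {X : Submodule F V} (hX : IsPoint QK H X) :
    ∀ x ∈ X, Q x = 0 := by
  obtain ⟨g', hg', v, hv, hv0, rfl⟩ := hX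
  rintro _ ⟨x, hx, rfl⟩
  show Q (g' x) = 0
  rw [hP.hHO hg']
  exact line_sing hP.tr hv x hx

theorem IsPoint.isPt [FiniteDimensional F K] (hP : Pre τ QK Q H) {X : Submodule F V}
    (hX : IsPoint QK H X) : IsPt Q H X := by
  obtain ⟨g', hg', v, hv, hv0, rfl⟩ := hX
  exact (isPt_line hP.tr hP.hE hv).map (hP.hHO hg') hg'

theorem line_eq_of_mem {v x : V} (hx : x ∈ line F K v) (hx0 : x ≠ 0) :
    line F K x = line F K v := by
  obtain ⟨k, rfl⟩ := mem_line.1 hx
  have hk : k ≠ 0 := by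
    rintro rfl
    exact hx0 (zero_smul K v)
  ext y
  rw [mem_line, mem_line]
  constructor
  · rintro ⟨c, rfl⟩
    exact ⟨c * k, mul_smul _ _ _⟩
  · rintro ⟨c, rfl⟩
    exact ⟨c * k⁻¹, by rw [smul_smul, mul_assoc, inv_mul_cancel₀ hk, mul_one]⟩

section Fin

variable [FiniteDimensional F V] [FiniteDimensional F K]

theorem IsPoint.eq_of_le {X Y : Submodule F V} (hX : IsPoint QK H X) (hY : IsPoint QK H Y)
    (h : X ≤ Y) : X = Y :=
  Submodule.eq_of_le_of_finrank_eq h (by rw [hX.finrank, hY.finrank])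

/-- A point containing `x` but not the line of `x` contains no `K`-line. -/
theorem IsPoint.not_line {Y : Submodule F V} (hY : IsPoint QK H Y) {x : V} (hx : x ∈ Y)
    (hx0 : x ≠ 0) (hne : line F K x ≠ Y) : ∀ x', x' ≠ 0 → ¬ line F K x' ≤ Y := by
  intro x' hx' hle
  apply hne
  have h1 : line F K x' = Y :=
    Submodule.eq_of_le_of_finrank_eq hle (by rw [finrank_line hx', hY.finrank])
  rw [← h1] at hx
  rw [← h1]
  exact line_eq_of_mem hx hx0

/-- A Siegel transformation over `K` moving a given subspace. -/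
theorem exists_move (h2 : (2 : K) ≠ 0) {u w y : V} {Y : Submodule F V}
    (hY : ∀ x, x ≠ 0 → ¬ line F K x ≤ Y) (hu : QK u = 0) (huw : polar QK u w = 0) (hyY : y ∈ Y)
    (hne : polar QK u y • w - polar QK w y • u ≠ 0) :
    ∃ (ω : K) (h : polar QK u (ω • w) = 0), siegel QK u (ω • w) hu h y ∉ Y := by
  by_contra hcon
  push Not at hcon
  have hp : ∀ ω : K, polar QK u (ω • w) = 0 := fun ω => by
    rw [polar_smul_right, huw, smul_zero]
  have h1 : ∀ ω : K, (ω * polar QK u y) • w - (ω * polar QK w y) • u -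
      (ω * ω * (QK w * polar QK u y)) • u ∈ Y := by
    intro ω
    have h3 := Y.sub_mem (hcon ω (hp ω)) hyY
    rw [siegel_apply, QuadraticMap.map_smul, polar_smul_left] at h3
    convert h3 using 1
    simp only [smul_eq_mul]
    module
  set κ := QK w * polar QK u y with hκ
  have h3 : ∀ ω : K, ω • κ • u ∈ Y := by
    intro ω
    have a1 := h1 (ω / 2 + 1)
    have a2 := h1 (ω / 2)
    have a3 := h1 1
    have a4 := Y.sub_mem (Y.sub_mem a1 a2) a3
    have a5 := Y.neg_mem a4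
    convert a5 using 1
    have e : ω = 2 * (ω / 2) := by field_simp
    conv_lhs => rw [e]
    module
  have h4 : κ • u = 0 := by
    by_contra h0
    apply hY _ h0
    intro x hx
    obtain ⟨k, rfl⟩ := mem_line.1 hx
    exact h3 k
  have h5 : ∀ ω : K, ω • (polar QK u y • w - polar QK w y • u) ∈ Y := by
    intro ω
    have a1 := h1 ω
    have e : (ω * ω * κ) • u = 0 := by rw [mul_smul, h4, smul_zero]
    rw [e, sub_zero] at a1
    convert a1 using 1
    module
  apply hY _ hne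
  intro x hx
  obtain ⟨k, rfl⟩ := mem_line.1 hx
  exact h5 k

/-- There are two distinct points meeting in a subspace of dimension at least `s`. -/
def Adj (QK : QuadraticForm K V) (H : Subgroup (V ≃ₗ[F] V)) (s : ℕ) : Prop :=
  ∃ X Y, IsPoint QK H X ∧ IsPoint QK H Y ∧ X ≠ Y ∧ s ≤ Module.finrank F (X ⊓ Y : Submodule F V)

theorem finrank_map_inf (X Y : Submodule F V) (g : V ≃ₗ[F] V) :
    Module.finrank F (X.map (g : V →ₗ[F] V) ⊓ Y.map (g : V →ₗ[F] V) : Submodule F V) =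
      Module.finrank F (X ⊓ Y : Submodule F V) := by
  rw [← Submodule.map_inf _ g.injective]
  exact LinearEquiv.finrank_map_eq g _

/-- Normal form of a pair of points meeting nontrivially. -/
theorem exists_line_pair {X Y : Submodule F V} (hX : IsPoint QK H X) (hne : X ≠ Y)
    (h1 : 1 ≤ Module.finrank F (X ⊓ Y : Submodule F V)) :
    ∃ g ∈ H, ∃ v, QK v = 0 ∧ v ≠ 0 ∧ X.map (g : V →ₗ[F] V) = line F K v ∧
      v ∈ Y.map (g : V →ₗ[F] V) ∧ line F K v ≠ Y.map (g : V →ₗ[F] V) := by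
  obtain ⟨g, hg, v, hv, hv0, e⟩ := hX.exists_line
  obtain ⟨x, hx, hx0⟩ := Submodule.exists_mem_ne_zero_of_ne_bot
    (p := X.map (g : V →ₗ[F] V) ⊓ Y.map (g : V →ₗ[F] V)) (by
      intro h0
      rw [← finrank_map_inf X Y g, h0, finrank_bot] at h1
      omega)
  have hxv : x ∈ line F K v := e ▸ hx.1
  have hl := line_eq_of_mem hxv hx0
  obtain ⟨k, hk⟩ := mem_line.1 hxv
  refine ⟨g, hg, x, ?_, hx0, by rw [hl, e], hx.2, ?_⟩
  · rw [← hk, QuadraticMap.map_smul, hv, smul_zero]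
  · rw [hl, ← e]
    intro h0
    apply hne
    have := congrArg (fun X => Submodule.map ((g⁻¹ : V ≃ₗ[F] V) : V →ₗ[F] V) X) h0
    simp only [map_inv_map] at this
    exact this

theorem adj_of_move (hP : Pre τ QK Q H) {Y : Submodule F V} (hY : IsPoint QK H Y)
    {a : V ≃ₗ[K] V} (ha : a ∈ E QK) {S : Submodule F V} {s : ℕ} (hs : s ≤ Module.finrank F S)
    (hSY : S ≤ Y) (hSa : ∀ x ∈ S, ∃ y ∈ Y, a y = x) {y : V} (hy : y ∈ Y) (hay : a y ∉ Y) :
    Adj QK H s := by
  refine ⟨Y, Y.map ((rs a : V ≃ₗ[F] V) : V →ₗ[F] V), hY, hY.map (hP.hE a ha), ?_, ?_⟩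
  · intro h
    apply hay
    rw [h]
    exact ⟨y, hy, rfl⟩
  · refine le_trans hs (Submodule.finrank_mono (le_inf hSY fun x hx => ?_))
    obtain ⟨y, hy, e⟩ := hSa x hx
    exact ⟨y, hy, e⟩

theorem finrank_sup_line {S : Submodule F V} {s : ℕ} (hs : s ≤ Module.finrank F S) {y : V}
    (hy : y ∉ S) : s + 1 ≤ Module.finrank F (S ⊔ Submodule.span F {y} : Submodule F V) := by
  have h1 : S < S ⊔ Submodule.span F {y} := by
    refine lt_of_le_of_ne le_sup_left fun h => hy ?_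
    rw [h]
    exact Submodule.mem_sup_right (Submodule.mem_span_singleton_self y)
  have := Submodule.finrank_lt_finrank_of_lt h1
  omega

end Fin

end Cfsg.Agent.H925.Ext
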