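import Cfsg.Agent.H925.ExtOrth
import Cfsg.Agent.ClassicalGeometry.Discriminant

/-!
# Overgroups of `Ω(V, QK)` in `Ω(V, τ ∘ QK)`, XII: `dim_K V = 4`, the intersections of points
-/

set_option autoImplicit false
set_option linter.unusedSectionVars false

namespace Cfsg.Agent.H925.Ext

open QuadraticMap Cfsg.Agent.LieClassical.OrthCore Cfsg.Agent.LieClassical.OrthTrans
  Cfsg.Agent.LieClassical.OrthFinite Cfsg.Agent.H883.Root Cfsg.Agent.H883.Sub
open scoped commutatorElement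

section One

variable {K V : Type*} [Field K] [AddCommGroup V] [Module K V] {QK : QuadraticForm K V}

/-- Two orthogonal nonsingular vectors orthogonal to a hyperbolic pair. -/
theorem exists_orth_pair (hQ : Nondeg QK) (h2 : (2 : K) ≠ 0) (hd : 4 ≤ Module.finrank K V)
    {v v' : V} (hyp : Hyp QK v v') : ∃ a b, polar QK v a = 0 ∧ polar QK v' a = 0 ∧
      polar QK v b = 0 ∧ polar QK v' b = 0 ∧ QK a ≠ 0 ∧ QK b ≠ 0 ∧ polar QK a b = 0 := by
  obtain ⟨a, ha1, ha2, ha⟩ := exists_perp_nonsing hQ (by omega) hyp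
  obtain ⟨b, hb0, hb⟩ := exists_perp_ne (Q := QK) ![v, v', a] (by omega)
  have hb1 : polar QK v b = 0 := hb 0
  have hb2 : polar QK v' b = 0 := hb 1
  have hb3 : polar QK a b = 0 := hb 2
  obtain ⟨c, hc⟩ := hQ.exists_polar_eq hb0 1
  set p := Cfsg.Agent.LieClassical.OrthTrans.proj QK v v' c with hp
  set c' := p - (polar QK a p * (2 * QK a)⁻¹) • a with hc'
  have h1 : polar QK v c' = 0 := by
    rw [hc', polar_sub_right, polar_smul_right, ha1, smul_zero, sub_zero]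
    exact polar_proj_left hyp c
  have h3 : polar QK v' c' = 0 := by
    rw [hc', polar_sub_right, polar_smul_right, ha2, smul_zero, sub_zero]
    exact polar_proj_right hyp c
  have h4 : polar QK a c' = 0 := by
    rw [hc', polar_sub_right, polar_smul_right, polar_self', smul_eq_mul]
    field_simp
    ring
  have h5 : polar QK b c' = 1 := by
    rw [hc', polar_sub_right, polar_smul_right, polar_comm QK b a, hb3, smul_zero, sub_zero, hp,
      polar_proj_of_perp hb1 hb2, hc]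
  rcases exists_nonsing h5 with h | h | h
  · exact ⟨a, b, ha1, ha2, hb1, hb2, ha, h, hb3⟩
  · exact ⟨a, c', ha1, ha2, h1, h3, ha, h, h4⟩
  · exact ⟨a, b + c', ha1, ha2, by rw [polar_add_right, hb1, h1, add_zero],
      by rw [polar_add_right, hb2, h3, add_zero], ha, h, by rw [polar_add_right, hb3, h4, add_zero]⟩

/-- The complement of a hyperbolic pair represents everything (`dim ≥ 4`, odd characteristic). -/
theorem exists_norm_perp [Finite K] (hQ : Nondeg QK) (h2 : (2 : K) ≠ 0)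
    (hd : 4 ≤ Module.finrank K V) {v v' : V} (hyp : Hyp QK v v') (κ : K) :
    ∃ w, polar QK v w = 0 ∧ polar QK v' w = 0 ∧ QK w = κ := by
  obtain ⟨a, b, ha1, ha2, hb1, hb2, ha, hb, hab⟩ := exists_orth_pair hQ h2 hd hyp
  obtain ⟨x, y, hxy⟩ := Cfsg.Agent.ClassicalGeometry.Discriminant.exists_repr h2 (QK a) (QK b) κ ha hb
  refine ⟨x • a + y • b, ?_, ?_, ?_⟩
  · rw [polar_add_right, polar_smul_right, polar_smul_right, ha1, hb1]; simp
  · rw [polar_add_right, polar_smul_right, polar_smul_right, ha2, hb2]; simp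
  · rw [Q_add, QuadraticMap.map_smul, QuadraticMap.map_smul, polar_smul_left, polar_smul_right,
      hab, ← hxy]
    simp only [smul_eq_mul]
    ring

/-- A singular vector not orthogonal to two given orthogonal nonzero singular vectors. -/
theorem exists_sing_two (hQ : Nondeg QK) {v v₁ : V} (hv : QK v = 0) (hv₁ : QK v₁ = 0)
    (hv0 : v ≠ 0) (hv₁0 : v₁ ≠ 0) (hvv : polar QK v v₁ = 0) :
    ∃ v₂, QK v₂ = 0 ∧ polar QK v v₂ ≠ 0 ∧ polar QK v₂ v₁ ≠ 0 := by
  obtain ⟨v', hyp⟩ := Cfsg.Agent.LieClassical.OrthTrans.exists_hyp hQ hv hv0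
  obtain ⟨v₁', hyp₁⟩ := Cfsg.Agent.LieClassical.OrthTrans.exists_hyp hQ hv₁ hv₁0
  by_cases h1 : polar QK v' v₁ = 0
  · by_cases h3 : polar QK v v₁' = 0
    · set ε := polar QK v' v₁' with hε
      have hQ2 : QK (v' + v₁' + (-ε) • v) = 0 := by
        rw [Q_add, Q_add, QuadraticMap.map_smul, hyp.right, hyp₁.right, hyp.left, ← hε,
          polar_smul_right, polar_add_left, hyp.pair', polar_comm QK v₁' v, h3]
        simp
      refine ⟨v' + v₁' + (-ε) • v, hQ2, ?_, ?_⟩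
      · rw [polar_add_right, polar_add_right, hyp.pair, h3, polar_smul_right, hyp.polar_left]
        simp
      · rw [polar_add_left, polar_add_left, h1, hyp₁.pair', polar_smul_left, hvv]
        simp
    · exact ⟨v₁', hyp₁.right, h3, by rw [hyp₁.pair']; exact one_ne_zero⟩
  · exact ⟨v', hyp.right, by rw [hyp.pair]; exact one_ne_zero, h1⟩

/-- **Transitivity on singular vectors, `dim ≥ 4`.** -/
theorem trans_four [Finite K] (hQ : Nondeg QK) (h2 : (2 : K) ≠ 0) (hd : 4 ≤ Module.finrank K V)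
    {v v₁ : V} (hv : QK v = 0) (hv₁ : QK v₁ = 0) (hv0 : v ≠ 0) (hv₁0 : v₁ ≠ 0) :
    ∃ g ∈ ⁅O QK, O QK⁆, g v = v₁ := by
  have key : ∀ v v₁ : V, QK v = 0 → QK v₁ = 0 → v ≠ 0 → polar QK v v₁ ≠ 0 →
      ∃ g ∈ ⁅O QK, O QK⁆, g v = v₁ := by
    intro v v₁ hv hv₁ hv0 hvv
    obtain ⟨v', hyp⟩ := Cfsg.Agent.LieClassical.OrthTrans.exists_hyp hQ hv hv0
    obtain ⟨w, hw1, -, hw⟩ := exists_norm_perp hQ h2 hd hyp (-(polar QK v v₁))
    have hw0 : QK w ≠ 0 := by rw [hw]; exact neg_ne_zero.2 hvv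
    obtain ⟨g, hg, e⟩ := exists_move_sing h2 hv hv₁ hvv hw0 hw1
    refine ⟨g, hg, ?_⟩
    rw [e, hw, neg_neg, mul_inv_cancel₀ hvv, one_smul]
  by_cases hvv : polar QK v v₁ = 0
  · obtain ⟨v₂, h3, h4, h5⟩ := exists_sing_two hQ hv hv₁ hv0 hv₁0 hvv
    have hv₂0 : v₂ ≠ 0 := by
      rintro rfl
      exact h4 (polar_zero_right QK v)
    obtain ⟨g, hg, e⟩ := key v v₂ hv h3 hv0 h4
    obtain ⟨g', hg', e'⟩ := key v₂ v₁ h3 hv₁ hv₂0 h5
    refine ⟨g' * g, Subgroup.mul_mem _ hg' hg, ?_⟩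
    show g' (g v) = v₁
    rw [e, e']
  · exact key v v₁ hv hv₁ hv0 hvv

end One

variable {F K V : Type*} [Field F] [Field K] [Algebra F K] [AddCommGroup V]
  [Module F V] [Module K V] [IsScalarTower F K V]

variable {τ : K →ₗ[F] F} {QK : QuadraticForm K V} {Q : QuadraticForm F V}
  {H : Subgroup (V ≃ₗ[F] V)}

section Fin

variable [FiniteDimensional F V] [FiniteDimensional F K]

theorem sing_of_three [Finite K] (hd : 3 ≤ Module.finrank K V) : ∃ v : V, v ≠ 0 ∧ QK v = 0 := by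
  obtain ⟨w, hw0, hw, -⟩ := exists_sing_perp (Q := QK) (n := 0) ![] (by omega)
  exact ⟨w, hw0, hw⟩

theorem PreC.trans_exact [Finite K] (hP : PreC τ QK Q H) (h2 : (2 : K) ≠ 0)
    (hd : 4 ≤ Module.finrank K V) {v v₁ : V} (hv : QK v = 0) (hv₁ : QK v₁ = 0) (hv0 : v ≠ 0)
    (hv₁0 : v₁ ≠ 0) : ∃ g ∈ O QK, (rs g : V ≃ₗ[F] V) ∈ H ∧ g v = v₁ := by
  obtain ⟨g, hg, e⟩ := trans_four hP.nondeg h2 hd hv hv₁ hv0 hv₁0
  exact ⟨g, comm_le_O hg, hP.hE g hg, e⟩

theorem PreC.trans_four [Finite K] (hP : PreC τ QK Q H) (h2 : (2 : K) ≠ 0)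
    (hd : 4 ≤ Module.finrank K V) : Trans F QK H := by
  intro v v' hv hv' hv0 hv'0
  obtain ⟨g, hg, hgH, e⟩ := hP.trans_exact h2 hd hv hv' hv0 hv'0
  exact ⟨g, hg, hgH, 1, one_ne_zero, by rw [one_smul]; exact e⟩

theorem setup_of_four [Finite K] (hP : PreC τ QK Q H) (h2 : (2 : K) ≠ 0)
    (hd : 4 ≤ Module.finrank K V) (hr : 2 ≤ Module.finrank F K) : Setup τ QK Q H where
  tr := hP.tr
  nondeg := hP.nondeg
  hHO := hP.hHO
  hE := (hP.pre h2).hE
  trans := hP.trans_four h2 hd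
  vals := by
    intro v hv hv0 κ hκ
    by_cases hκ0 : κ = 0
    · subst hκ0
      exact Submodule.zero_mem _
    obtain ⟨v', hyp⟩ := Cfsg.Agent.LieClassical.OrthTrans.exists_hyp hP.nondeg hv hv0
    obtain ⟨w, hw1, -, hw⟩ := exists_norm_perp hP.nondeg h2 hd hyp κ
    apply Submodule.subset_span
    refine ⟨w, hw1, fun h => ?_, hw, hκ⟩
    obtain ⟨k, rfl⟩ := mem_line.1 h
    apply hκ0
    rw [← hw, QuadraticMap.map_smul, hv, smul_zero]
  sing := sing_of_three (by omega)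
  deg := hr
  dim := by
    rw [← Module.finrank_mul_finrank F K V]
    nlinarith

/-- **A degenerate pair of points**: `y₁ ∈ Y ∖ X` orthogonal to `X`, `Y` not orthogonal to `X`. -/
theorem adj_step_degenerate [Finite K] (hP : Pre τ QK Q H) (h2 : (2 : K) ≠ 0)
    (hd : 4 ≤ Module.finrank K V) {s : ℕ} {v : V} (hv : QK v = 0) (hv0 : v ≠ 0)
    {Y : Submodule F V} (hY : IsPoint QK H Y) (hne : line F K v ≠ Y) (hvY : v ∈ Y)
    (hint : s ≤ Module.finrank F (line F K v ⊓ Y : Submodule F V)) {y₁ y₂ : V} (hy₁ : y₁ ∈ Y)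
    (hy₁X : y₁ ∉ line F K v) (hvy₁ : polar QK v y₁ = 0) (hy₂ : y₂ ∈ Y)
    (hvy₂ : polar QK v y₂ ≠ 0) : Adj QK H (s + 1) := by
  have hnl := hY.not_line hvY hv0 hne
  obtain ⟨v', hyp⟩ := Cfsg.Agent.LieClassical.OrthTrans.exists_hyp hP.nondeg hv hv0
  obtain ⟨w, hw0, hw⟩ := exists_perp_ne (Q := QK) ![v, v', y₁] (by omega)
  have hvw : polar QK v w = 0 := hw 0
  have hv'w : polar QK v' w = 0 := hw 1
  have hy₁w : polar QK y₁ w = 0 := hw 2
  obtain ⟨ω, hω, hmove⟩ := exists_move h2 hnl hv hvw hy₂ (by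
    intro h0
    have h1 : polar QK v' (polar QK v y₂ • w - polar QK w y₂ • v) = 0 := by
      rw [h0, polar_zero_right]
    rw [polar_sub_right, polar_smul_right, polar_smul_right, hv'w, hyp.pair', smul_zero, zero_sub,
      neg_eq_zero, smul_eq_mul, mul_one] at h1
    rw [h1, zero_smul, sub_zero] at h0
    exact (smul_ne_zero hvy₂ hw0) h0)
  refine adj_of_move hP hY (siegel_mem_E hv hω)
    (S := (line F K v ⊓ Y) ⊔ Submodule.span F {y₁})
    (finrank_sup_line hint fun h => hy₁X h.1) ?_ ?_ hy₂ hmove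
  · refine sup_le inf_le_right ?_
    rw [Submodule.span_singleton_le_iff_mem]
    exact hy₁
  · intro x hx
    obtain ⟨x₁, hx₁, x₂, hx₂, rfl⟩ := Submodule.mem_sup.1 hx
    obtain ⟨c, rfl⟩ := Submodule.mem_span_singleton.1 hx₂
    refine ⟨x₁ + c • y₁, Y.add_mem hx₁.2 (Y.smul_mem c hy₁), ?_⟩
    have h1 : siegel QK v (ω • w) hv hω y₁ = y₁ := by
      apply siegel_fix hv hω hvy₁
      rw [polar_smul_left, polar_comm, hy₁w, smul_zero]
    rw [map_add, siegel_fix_line hv hω hx₁.1, ← algebraMap_smul K c y₁, map_smul, h1]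

end Fin

end Cfsg.Agent.H925.Ext
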