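import Cfsg.Agent.H925.ExtStep

/-!
# Overgroups of `Ω(V, QK)` in `Ω(V, τ ∘ QK)`, IX: commutator subgroup of `O QK` in odd characteristic

* `siegel_mem_comm`, `E_le_comm` : `E QK ≤ ⁅O QK, O QK⁆`;
* `refl_mul_refl_mem_comm` : products of two reflections of the same norm;
* `exists_move_sing` : transitivity on singular vectors, up to squares.
-/

set_option autoImplicit false
set_option linter.unusedSectionVars false

namespace Cfsg.Agent.H925.Ext

open QuadraticMap Cfsg.Agent.LieClassical.OrthCore Cfsg.Agent.LieClassical.OrthTrans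
  Cfsg.Agent.LieClassical.OrthFinite Cfsg.Agent.H883.Root Cfsg.Agent.H883.Sub
open scoped commutatorElement

section One

variable {K V : Type*} [Field K] [AddCommGroup V] [Module K V] {QK : QuadraticForm K V}

/-- The isometry which is `1` on the hyperbolic plane and `-1` on its complement. -/
theorem exists_invol {v v' : V} (hyp : Hyp QK v v') :
    ∃ g ∈ O QK, g v = v ∧ g v' = v' ∧ ∀ x, g x = -x + (2 * polar QK v' x) • v +
      (2 * polar QK v x) • v' := by
  let f : V →ₗ[K] V := -LinearMap.id + (2 : K) • (polarBilin QK v').smulRight v +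
    (2 : K) • (polarBilin QK v).smulRight v'
  have hf : ∀ x, f x = -x + (2 * polar QK v' x) • v + (2 * polar QK v x) • v' := by
    intro x
    simp only [f, LinearMap.add_apply, LinearMap.neg_apply, LinearMap.id_apply,
      LinearMap.smul_apply, LinearMap.smulRight_apply, polarBilin_apply_apply, smul_smul]
  have hff : ∀ x, f (f x) = x := by
    intro x
    rw [hf (f x), hf x]
    simp only [polar_add_right, polar_neg_right, polar_smul_right, hyp.pair, hyp.pair',
      hyp.polar_left, hyp.polar_right, smul_eq_mul]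
    module
  let g : V ≃ₗ[K] V := LinearEquiv.ofLinearMap f f (by ext x; exact hff x) (by ext x; exact hff x)
  have hg : ∀ x, g x = f x := fun x => rfl
  refine ⟨g, fun x => ?_, ?_, ?_, fun x => by rw [hg, hf]⟩
  · rw [hg, hf]
    rw [Q_add, Q_add, QuadraticMap.map_neg, QuadraticMap.map_smul, QuadraticMap.map_smul,
      hyp.left, hyp.right, polar_add_left, polar_neg_left, polar_smul_right, polar_smul_left,
      polar_smul_right, polar_smul_right, polar_neg_left, hyp.pair, polar_comm QK x v,
      polar_comm QK x v']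
    simp only [smul_eq_mul]
    ring
  · rw [hg, hf, hyp.pair', hyp.polar_left]
    module
  · rw [hg, hf, hyp.pair, hyp.polar_right]
    module

theorem has_comm_of_fix {g : V ≃ₗ[K] V} (hg : g ∈ O QK) {v w : V} (hv : QK v = 0)
    (hw : polar QK v w = 0) (hgv : g v = v) : Has QK ⁅O QK, O QK⁆ v (g w - w) := by
  have hgw : polar QK v (g w) = 0 := by
    nth_rewrite 1 [← hgv]
    rw [polar_map hg]
    exact hw
  have h1 : polar QK v (g w - w) = 0 := by rw [polar_sub_right, hgw, hw, sub_zero]
  refine ⟨hv, h1, ?_⟩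
  have hv' : QK (g v) = 0 := by rw [hgv]; exact hv
  have hw' : polar QK (g v) (g w) = 0 := by rw [polar_map hg]; exact hw
  have hnw : polar QK v (-w) = 0 := by rw [polar_neg_right, hw, neg_zero]
  have h2 : g * siegel QK v w hv hw * g⁻¹ = siegel QK v (g w) hv hgw := by
    rw [siegel_conj hg hv hw hv' hw']
    congr 1
  have h3 : ⁅g, siegel QK v w hv hw⁆ = siegel QK v (g w + -w) hv (by
      rw [← sub_eq_add_neg]; exact h1) := by
    rw [commutatorElement_def, h2, siegel_inv hv hw hnw, siegel_mul hv hgw hnw]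
  have h4 : siegel QK v (g w - w) hv h1 = ⁅g, siegel QK v w hv hw⁆ := by
    rw [h3]
    congr 1
    rw [sub_eq_add_neg]
  rw [h4]
  exact Subgroup.commutator_mem_commutator hg (siegel_mem_O hv hw)

/-- In odd characteristic the Siegel transformations are commutators. -/
theorem siegel_mem_comm (hQ : Nondeg QK) (h2 : (2 : K) ≠ 0) {v w : V} (hv : QK v = 0)
    (hw : polar QK v w = 0) : Has QK ⁅O QK, O QK⁆ v w := by
  by_cases hv0 : v = 0
  · subst hv0
    exact has_zero_left w
  obtain ⟨v', hyp⟩ := Cfsg.Agent.LieClassical.OrthTrans.exists_hyp hQ hv hv0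
  obtain ⟨g, hg, hgv, -, hgx⟩ := exists_invol hyp
  have hw' : polar QK v ((-(2 : K)⁻¹) • w) = 0 := by rw [polar_smul_right, hw, smul_zero]
  have h1 := has_comm_of_fix hg hv hw' hgv
  have h3 := h1.add_smul_self (polar QK v' w)
  refine h3.congr rfl ?_
  rw [hgx, polar_smul_right, polar_smul_right, hw]
  simp only [smul_eq_mul]
  have e : (2 : K) * (-2⁻¹ * polar QK v' w) = -polar QK v' w := by field_simp
  have e' : w = (2 : K) • ((2 : K)⁻¹ • w) := by rw [smul_smul, mul_inv_cancel₀ h2, one_smul]
  rw [e]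
  conv_rhs => rw [e']
  module

theorem E_le_comm (hQ : Nondeg QK) (h2 : (2 : K) ≠ 0) : E QK ≤ ⁅O QK, O QK⁆ := by
  rw [E, Subgroup.closure_le]
  rintro _ ⟨u, w, hu, hw, rfl⟩
  exact (siegel_mem_comm hQ h2 hu hw).mem hu hw

/-- Two reflections of the same norm are conjugate. -/
theorem refl_mul_refl_mem_comm (h2 : (2 : K) ≠ 0) {a b : V} (ha : QK a ≠ 0) (hb : QK b ≠ 0)
    (h : QK a = QK b) : refl QK a ha * refl QK b hb ∈ ⁅O QK, O QK⁆ := by
  -- an isometry `g` with `g a = ± b`
  obtain ⟨g, hg, hgab⟩ : ∃ g ∈ O QK, g a = b ∨ g a = -b := by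
    by_cases h3 : QK (a - b) = 0
    · have h4 : QK (a + b) ≠ 0 := by
        intro h4
        have e1 : QK (a + b) = QK a + QK b + polar QK a b := QuadraticMap.map_add QK a b
        have e2 : QK (a - b) = QK a + QK b - polar QK a b := by
          rw [sub_eq_add_neg, Q_add, QuadraticMap.map_neg, polar_neg_right]
          ring
        rw [e1] at h4
        rw [e2] at h3
        have h5 : (2 : K) * (2 * QK b) = 0 := by linear_combination h3 + h4 - 2 * h
        rcases mul_eq_zero.1 h5 with h6 | h6
        · exact h2 h6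
        · rcases mul_eq_zero.1 h6 with h7 | h7
          · exact h2 h7
          · exact hb h7
      have h5 : QK (a - -b) ≠ 0 := by rw [sub_neg_eq_add]; exact h4
      refine ⟨refl QK (a - -b) h5, refl_mem_O h5, Or.inr ?_⟩
      exact refl_sub_apply (by rw [QuadraticMap.map_neg, h]) h5
    · exact ⟨refl QK (a - b) h3, refl_mem_O h3, Or.inl (refl_sub_apply h.symm h3)⟩
  have hga : QK (g a) ≠ 0 := by rw [mem_O.1 hg]; exact ha
  have e : refl QK b hb = refl QK (g a) hga := by
    rcases hgab with e | e
    · congr 1; exact e.symm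
    · have h3 : QK ((-1 : K) • b) ≠ 0 := by
        rw [neg_one_smul, QuadraticMap.map_neg]; exact hb
      rw [← refl_smul hb (neg_ne_zero.2 one_ne_zero) h3]
      congr 1
      rw [e, neg_one_smul]
  have e2 : refl QK a ha * refl QK b hb = ⁅refl QK a ha, g⁆ := by
    rw [e, ← refl_conj hg ha hga, commutatorElement_def, refl_inv, ← mul_assoc, ← mul_assoc]
  rw [e2]
  exact Subgroup.commutator_mem_commutator (refl_mem_O ha) hg

/-- Moving a singular vector to a nonorthogonal one. -/
theorem exists_move_sing (h2 : (2 : K) ≠ 0) {v v₁ w : V} (hv : QK v = 0) (hv₁ : QK v₁ = 0)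
    (hvv : polar QK v v₁ ≠ 0) (hw : QK w ≠ 0) (hvw : polar QK v w = 0) :
    ∃ g ∈ ⁅O QK, O QK⁆, g v = (-(QK w) * (polar QK v v₁)⁻¹) • v₁ := by
  set c := -(QK w) * (polar QK v v₁)⁻¹ with hc
  have h1 : QK (v - c • v₁) = QK w := by
    rw [sub_eq_add_neg, ← neg_smul, Q_add, QuadraticMap.map_smul, hv, hv₁, polar_smul_right, hc]
    simp only [smul_eq_mul]
    field_simp
    ring
  have h3 : QK (v - c • v₁) ≠ 0 := by rw [h1]; exact hw
  refine ⟨_, refl_mul_refl_mem_comm h2 h3 hw h1, ?_⟩
  show refl QK (v - c • v₁) h3 (refl QK w hw v) = c • v₁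
  have h4 : refl QK w hw v = v := by
    rw [refl_apply, polar_comm QK w v, hvw]
    simp
  rw [h4]
  exact refl_sub_apply (by rw [QuadraticMap.map_smul, hv₁, hv, smul_zero]) h3

end One

end Cfsg.Agent.H925.Ext
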