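import Cfsg.Agent.H925.ExtThetaB
import Cfsg.Agent.H925.OrthNot
import Cfsg.Agent.H887.OmegaBridge
import Cfsg.Agent.H926.Deg

/-!
# Maximality of the normalisers of self-adjoint field subalgebras in `Ω`: the transfer to matrices
-/

set_option autoImplicit false
set_option linter.unusedSectionVars false

namespace Cfsg.Agent.H925.Ext

open QuadraticMap Cfsg.Geo Cfsg.Agent.LieClassical.OrthCore Cfsg.Agent.LieClassical.OrthTrans
  Cfsg.Agent.LieClassical.OrthFinite Cfsg.Agent.H887.OmegaBridge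
open scoped MatrixGroups Matrix

universe u

variable {ι : Type} [Fintype ι] [DecidableEq ι] {F : Type u} [Field F]

section

variable {K : Subalgebra F (Matrix ι ι F)}

theorem ksmul_def (k : K) (v : ι → F) : k • v = (k : Matrix ι ι F) *ᵥ v := rfl

/-- Membership in the normaliser of a (finite) subalgebra. -/
theorem mem_subalgebraNormalizer_iff' [Finite F] (g : GL ι F) :
    g ∈ subalgebraNormalizer K ↔
      ∀ k : K, ∃ c : K, ∀ x : ι → F, (le ι F g)⁻¹ (k • le ι F g x) = c • x := by
  have hinv1 : ((g⁻¹ : GL ι F) : Matrix ι ι F) * (g : Matrix ι ι F) = 1 := by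
    rw [← Units.val_mul, inv_mul_cancel, Units.val_one]
  have hinv2 : (g : Matrix ι ι F) * ((g⁻¹ : GL ι F) : Matrix ι ι F) = 1 := by
    rw [← Units.val_mul, mul_inv_cancel, Units.val_one]
  have hle : ∀ x : ι → F, (le ι F g)⁻¹ x = ((g⁻¹ : GL ι F) : Matrix ι ι F) *ᵥ x := by
    intro x
    rw [← map_inv, le_apply]
  have hconj : ∀ (k : K) (x : ι → F), (le ι F g)⁻¹ (k • le ι F g x) =
      (((g⁻¹ : GL ι F) : Matrix ι ι F) * (k : Matrix ι ι F) * (g : Matrix ι ι F)) *ᵥ x := by
    intro k x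
    rw [hle, le_apply, ksmul_def, Matrix.mulVec_mulVec, Matrix.mulVec_mulVec]
  constructor
  · intro hg k
    have h1 : ((g⁻¹ : GL ι F) : Matrix ι ι F) * (k : Matrix ι ι F) * (g : Matrix ι ι F) ∈ K := by
      rw [hg]
      have : (g : Matrix ι ι F) * (((g⁻¹ : GL ι F) : Matrix ι ι F) * (k : Matrix ι ι F) *
          (g : Matrix ι ι F)) * ((g⁻¹ : GL ι F) : Matrix ι ι F) = k := by
        rw [mul_assoc ((g⁻¹ : GL ι F) : Matrix ι ι F), ← mul_assoc (g : Matrix ι ι F), hinv2,
          one_mul, mul_assoc, hinv2, mul_one]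
      rw [this]
      exact k.2
    exact ⟨⟨_, h1⟩, fun x => by rw [hconj]; rfl⟩
  · intro h
    have h1 : ∀ k : K, ((g⁻¹ : GL ι F) : Matrix ι ι F) * (k : Matrix ι ι F) *
        (g : Matrix ι ι F) ∈ K := by
      intro k
      obtain ⟨c, hc⟩ := h k
      have : ((g⁻¹ : GL ι F) : Matrix ι ι F) * (k : Matrix ι ι F) * (g : Matrix ι ι F) = c := by
        apply Matrix.mulVec_injective
        funext x
        rw [← hconj, hc]
        rfl
      rw [this]
      exact c.2
    have : Finite K := Module.finite_of_finite F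
    let f : K → K := fun k => ⟨_, h1 k⟩
    have hf : Function.Injective f := by
      intro a b hab
      apply Subtype.ext
      have h2 : ((g⁻¹ : GL ι F) : Matrix ι ι F) * (a : Matrix ι ι F) * (g : Matrix ι ι F) =
          ((g⁻¹ : GL ι F) : Matrix ι ι F) * (b : Matrix ι ι F) * (g : Matrix ι ι F) :=
        congrArg Subtype.val hab
      have h3 : ∀ m : Matrix ι ι F, m = (g : Matrix ι ι F) *
          (((g⁻¹ : GL ι F) : Matrix ι ι F) * m * (g : Matrix ι ι F)) *
            ((g⁻¹ : GL ι F) : Matrix ι ι F) := by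
        intro m
        rw [mul_assoc ((g⁻¹ : GL ι F) : Matrix ι ι F), ← mul_assoc (g : Matrix ι ι F), hinv2,
          one_mul, mul_assoc, hinv2, mul_one]
      rw [h3 a, h2, ← h3 b]
    have hfs := Finite.surjective_of_injective hf
    intro k
    constructor
    · intro hk
      obtain ⟨k', hk'⟩ := hfs ⟨k, hk⟩
      have h2 : ((g⁻¹ : GL ι F) : Matrix ι ι F) * (k' : Matrix ι ι F) * (g : Matrix ι ι F) = k :=
        congrArg Subtype.val hk'
      rw [← h2, mul_assoc ((g⁻¹ : GL ι F) : Matrix ι ι F), ← mul_assoc (g : Matrix ι ι F), hinv2,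
          one_mul, mul_assoc, hinv2, mul_one]
      exact k'.2
    · intro hk
      have h2 := h1 ⟨_, hk⟩
      have h3 : ((g⁻¹ : GL ι F) : Matrix ι ι F) * ((g : Matrix ι ι F) * k *
          ((g⁻¹ : GL ι F) : Matrix ι ι F)) * (g : Matrix ι ι F) = k := by
        rw [mul_assoc (g : Matrix ι ι F), ← mul_assoc, hinv1, one_mul, mul_assoc, hinv1, mul_one]
      rwa [h3] at h2

end

/-- The derived group of the orthogonal group of a `K`-form. -/
theorem rs_mem_E_of_comm {F K V : Type*} [Field F] [Field K] [Algebra F K] [AddCommGroup V]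
    [Module F V] [Module K V] [IsScalarTower F K V] {τ : K →ₗ[F] F} {QK : QuadraticForm K V}
    {Q : QuadraticForm F V} (hT : Tr τ QK Q) (hG : Good Q) :
    ∀ g ∈ ⁅O QK, O QK⁆, (rs g : V ≃ₗ[F] V) ∈ E Q := by
  have h1 : (O QK).map (rs (F := F)) ≤ O Q := by
    rintro _ ⟨g, hg, rfl⟩ v
    rw [rs_apply, hT.eq, hT.eq, hg]
  have h2 : (⁅O QK, O QK⁆).map (rs (F := F)) ≤ E Q := by
    rw [Subgroup.map_commutator, ← hG.commutator_eq_E]
    exact Subgroup.commutator_mono h1 h1
  intro g hg
  exact h2 ⟨g, hg, rfl⟩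

/-- **The transfer.**  `hmain` is the theorem on overgroups for the `K`-forms of the given dimension. -/
theorem isMaximalIn_of_mainC [Finite F] {Q : (ι → F) → F} (hQ : IsNondegenerateQuadraticForm Q)
    (hn : 5 ≤ Fintype.card ι) (h2 : (2 : F) ≠ 0) {r : ℕ} (hr : r.Prime)
    {K : Subalgebra F (Matrix ι ι F)} (hK : IsFieldSubalgebra r K)
    (hsa : IsSelfAdjointFor (polar Q) K)
    (hmain : ∀ (K' : Type u) [Field K'] [Algebra F K'] [Module K' (ι → F)]
      [IsScalarTower F K' (ι → F)] [FiniteDimensional F K'] [Finite K'] (τ : K' →ₗ[F] F)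
      (QK : QuadraticForm K' (ι → F)), Tr τ QK (H887.OmegaBridge.qf Q hQ) → Nondeg QK → Module.finrank F K' = r →
        Module.finrank K' (ι → F) * r = Fintype.card ι →
        ∀ H : Subgroup ((ι → F) ≃ₗ[F] (ι → F)), PreC τ QK (H887.OmegaBridge.qf Q hQ) H →
          (¬ ∀ g ∈ H, NormK K' g) → E (H887.OmegaBridge.qf Q hQ) ≤ H) :
    IsMaximalIn (omegaGL Q) (subalgebraNormalizer K ⊓ omegaGL Q) := by
  have : Nonempty ι := Fintype.card_pos_iff.1 (by omega)
  have hG : Good (H887.OmegaBridge.qf Q hQ) := good_of_finite (H887.OmegaBridge.nondeg_qf Q hQ)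
    (by rwa [Module.finrank_fintype_fun_eq_card])
  obtain ⟨τ, hτ⟩ := H926.exists_tau K
  let instK : Field K := (H912.isField_of_fieldSub hK).toField
  have : Finite K := Module.finite_of_finite F
  have hf : IsBilinearForm (polar Q) := hQ.polar_bilinear
  let B : LinearMap.BilinForm K (ι → F) := LinearMap.mk₂ K (fun u v => H926.kForm hK hτ hf u v)
    (fun u u' v => H926.kForm_unique hK hτ hf fun k => by
      rw [mul_add, map_add, H926.kForm_spec, H926.kForm_spec, Matrix.mulVec_add, hf.add_left])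
    (fun c u v => H926.kForm_unique hK hτ hf fun k => by
      have h1 : k * c • H926.kForm hK hτ hf u v = (k * c) * H926.kForm hK hτ hf u v := by
        rw [smul_eq_mul, mul_assoc]
      rw [h1, H926.kForm_spec]
      show polar Q (((k : Matrix ι ι F) * (c : Matrix ι ι F)) *ᵥ u) v =
        polar Q ((k : Matrix ι ι F) *ᵥ ((c : Matrix ι ι F) *ᵥ u)) v
      rw [Matrix.mulVec_mulVec])
    (fun u v v' => H926.kForm_unique hK hτ hf fun k => by
      rw [mul_add, map_add, H926.kForm_spec, H926.kForm_spec, hf.add_right])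
    (fun c u v => H926.kForm_unique hK hτ hf fun k => by
      have h1 : k * c • H926.kForm hK hτ hf u v = (c * k) * H926.kForm hK hτ hf u v := by
        rw [smul_eq_mul, ← mul_assoc, mul_comm k c]
      rw [h1, H926.kForm_spec]
      show polar Q (((c : Matrix ι ι F) * (k : Matrix ι ι F)) *ᵥ u) v =
        polar Q ((k : Matrix ι ι F) *ᵥ u) ((c : Matrix ι ι F) *ᵥ v)
      rw [← Matrix.mulVec_mulVec, hsa c c.2])
  have hB : ∀ (k : K) (u v : ι → F), τ (k * B u v) = polar Q ((k : Matrix ι ι F) *ᵥ u) v :=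
    fun k u v => H926.kForm_spec hK hτ hf u v k
  have hB1 : ∀ (u v : ι → F), τ (B u v) = polar Q u v := by
    intro u v
    have := hB 1 u v
    rw [one_mul] at this
    rw [this]
    show polar Q ((1 : Matrix ι ι F) *ᵥ u) v = polar Q u v
    rw [Matrix.one_mulVec]
  have hBsymm : ∀ u v, B u v = B v u := by
    intro u v
    apply tau_ext' hτ
    intro k
    rw [hB, hB, hsa k k.2, polar_comm]
  have h2K : (2 : K) ≠ 0 := by
    intro h0
    apply h2
    apply (algebraMap F K).injective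
    rw [map_ofNat, map_zero]
    exact h0
  let QK : QuadraticForm K (ι → F) := (2 : K)⁻¹ • B.toQuadraticMap
  have hQK : ∀ v, QK v = (2 : K)⁻¹ * B v v := fun v => rfl
  have hpolar : ∀ u v, polar QK u v = B u v := by
    intro u v
    rw [QuadraticMap.polar, hQK, hQK, hQK, map_add, map_add, LinearMap.add_apply,
      LinearMap.add_apply, hBsymm v u]
    field_simp
    ring
  have hTr : Tr τ QK (H887.OmegaBridge.qf Q hQ) := by
    refine ⟨hτ, fun v => ?_⟩
    rw [H887.OmegaBridge.qf_apply, hQK]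
    have e1 : (2 : K)⁻¹ * B v v = (2 : F)⁻¹ • B v v := by
      rw [Algebra.smul_def, map_inv₀, map_ofNat]
    rw [e1, map_smul, hB1, smul_eq_mul]
    have h3 : polar (H887.OmegaBridge.qf Q hQ) v v = 2 * H887.OmegaBridge.qf Q hQ v := polar_self' v
    change polar Q v v = 2 * Q v at h3
    rw [h3, ← mul_assoc, inv_mul_cancel₀ h2, one_mul]
  have hnd : Nondeg QK := by
    intro x hx
    apply H887.OmegaBridge.nondeg_qf Q hQ
    intro y
    change polar Q x y = 0
    rw [← hB1, ← hpolar, hx y, map_zero]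
  have hdim : Module.finrank K (ι → F) * r = Fintype.card ι := by
    have h1 := Module.finrank_mul_finrank F K (ι → F)
    rw [hK.finrank_eq, Module.finrank_fintype_fun_eq_card, mul_comm] at h1
    exact h1
  have hmain' := hmain K τ QK hTr hnd hK.finrank_eq hdim
  refine H887.OmegaBridge.isMaximalIn_omegaGL Q hQ hG (subalgebraNormalizer K) {g | NormK K g}
    mem_subalgebraNormalizer_iff' ?_ ?_
  · by_contra hcon
    push Not at hcon
    apply Cfsg.Agent.H925.omegaGL_not_le_subalgebraNormalizer hQ hn hr.two_le hK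
    intro g hg
    rw [mem_subalgebraNormalizer_iff']
    exact hcon _ ((H887.OmegaBridge.mem_omegaGL_iff Q hQ hG g).1 hg)
  · intro H hHE hSH hex
    apply hmain' H
    · refine ⟨hTr, hnd, hHE.trans E_le_O, fun g hg => hSH _ (rs_mem_E_of_comm hTr hG g hg) ?_⟩
      intro k
      refine ⟨k, fun x => ?_⟩
      have h3 : (rs g : (ι → F) ≃ₗ[F] (ι → F))⁻¹ (k • g x) = k • x := by
        rw [← map_inv, rs_apply, map_smul]
        congr 1
        exact LinearEquiv.symm_apply_apply g x
      exact h3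
    · push Not
      exact hex

/-- **The transfer.**  `hmain` is the theorem on overgroups for the `K`-forms of the given dimension. -/
theorem isMaximalIn_of_main [Finite F] {Q : (ι → F) → F} (hQ : IsNondegenerateQuadraticForm Q)
    (hn : 5 ≤ Fintype.card ι) (h2 : (2 : F) ≠ 0) {r : ℕ} (hr : r.Prime)
    {K : Subalgebra F (Matrix ι ι F)} (hK : IsFieldSubalgebra r K)
    (hsa : IsSelfAdjointFor (polar Q) K)
    (hmain : ∀ (K' : Type u) [Field K'] [Algebra F K'] [Module K' (ι → F)]
      [IsScalarTower F K' (ι → F)] [FiniteDimensional F K'] [Finite K'] (τ : K' →ₗ[F] F)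
      (QK : QuadraticForm K' (ι → F)), Tr τ QK (H887.OmegaBridge.qf Q hQ) → Nondeg QK → Module.finrank F K' = r →
        Module.finrank K' (ι → F) * r = Fintype.card ι →
        (∀ g ∈ E QK, (rs g : (ι → F) ≃ₗ[F] (ι → F)) ∈ E (H887.OmegaBridge.qf Q hQ)) ∧
        ∀ H : Subgroup ((ι → F) ≃ₗ[F] (ι → F)), Pre τ QK (H887.OmegaBridge.qf Q hQ) H → (¬ ∀ g ∈ H, NormK K' g) →
          E (H887.OmegaBridge.qf Q hQ) ≤ H) :
    IsMaximalIn (omegaGL Q) (subalgebraNormalizer K ⊓ omegaGL Q) := by
  refine isMaximalIn_of_mainC hQ hn h2 hr hK hsa ?_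
  intro K' _ _ _ _ _ _ τ QK hT hnd hrK hdim H hP hH
  refine (hmain K' τ QK hT hnd hrK hdim).2 H (hP.pre ?_) hH
  intro h0
  apply h2
  apply (algebraMap F K').injective
  rw [map_ofNat, map_zero]
  exact h0

/-- For `Good` forms over `K` the group `E QK` is perfect. -/
theorem rs_mem_E {F K V : Type*} [Field F] [Field K] [Algebra F K] [AddCommGroup V]
    [Module F V] [Module K V] [IsScalarTower F K V] {τ : K →ₗ[F] F} {QK : QuadraticForm K V}
    {Q : QuadraticForm F V} (hT : Tr τ QK Q) (hG : Good Q) (hperf : ⁅E QK, E QK⁆ = E QK) :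
    ∀ g ∈ E QK, (rs g : V ≃ₗ[F] V) ∈ E Q := by
  have h1 : (E QK).map (rs (F := F)) ≤ O Q := by
    rintro _ ⟨g, hg, rfl⟩ v
    rw [rs_apply, hT.eq, hT.eq, E_le_O hg]
  have h2 : (E QK).map (rs (F := F)) ≤ E Q := by
    rw [← hperf, Subgroup.map_commutator, ← hG.commutator_eq_E]
    exact Subgroup.commutator_mono h1 h1
  intro g hg
  exact h2 ⟨g, hg, rfl⟩

/-- **Self-adjoint field subalgebras, dimension at least `5` over `K`.** -/
theorem selfAdjoint_isMaximalIn_of_five [Finite F] {Q : (ι → F) → F}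
    (hQ : IsNondegenerateQuadraticForm Q) (h2 : (2 : F) ≠ 0) {r : ℕ} (hr : r.Prime)
    (hn : 5 * r ≤ Fintype.card ι) {K : Subalgebra F (Matrix ι ι F)} (hK : IsFieldSubalgebra r K)
    (hsa : IsSelfAdjointFor (polar Q) K) :
    IsMaximalIn (omegaGL Q) (subalgebraNormalizer K ⊓ omegaGL Q) := by
  have hr2 := hr.two_le
  have hG : Good (H887.OmegaBridge.qf Q hQ) := good_of_finite (H887.OmegaBridge.nondeg_qf Q hQ)
    (by rw [Module.finrank_fintype_fun_eq_card]; omega)
  refine isMaximalIn_of_main hQ (by omega) h2 hr hK hsa ?_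
  intro K' _ _ _ _ _ _ τ QK hT hnd hrK hdim
  have hd : 5 ≤ Module.finrank K' (ι → F) := by
    by_contra hcon
    have h3 : Module.finrank K' (ι → F) * r ≤ 4 * r := Nat.mul_le_mul_right r (by omega)
    omega
  have hGK : Good QK := good_of_finite hnd hd
  refine ⟨rs_mem_E hT hG hGK.E_perfect, fun H hP hH => ?_⟩
  exact main_five hP h2 hd (by rw [hrK]; exact hr) hH

/-- **Self-adjoint field subalgebras of odd degree, dimension at least `4` over `K`.** -/
theorem selfAdjoint_isMaximalIn_of_four [Finite F] {Q : (ι → F) → F}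
    (hQ : IsNondegenerateQuadraticForm Q) (h2 : (2 : F) ≠ 0) {r : ℕ} (hr : r.Prime) (hr3 : 3 ≤ r)
    (hn : 4 * r ≤ Fintype.card ι) {K : Subalgebra F (Matrix ι ι F)} (hK : IsFieldSubalgebra r K)
    (hsa : IsSelfAdjointFor (polar Q) K) :
    IsMaximalIn (omegaGL Q) (subalgebraNormalizer K ⊓ omegaGL Q) := by
  refine isMaximalIn_of_mainC hQ (by omega) h2 hr hK hsa ?_
  intro K' _ _ _ _ _ _ τ QK hT hnd hrK hdim H hP hH
  have hd : 4 ≤ Module.finrank K' (ι → F) := by
    by_contra hcon
    have h3 : Module.finrank K' (ι → F) * r ≤ 3 * r := Nat.mul_le_mul_right r (by omega)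
    omega
  have h2K : (2 : K') ≠ 0 := by
    intro h0
    apply h2
    apply (algebraMap F K').injective
    rw [map_ofNat, map_zero]
    exact h0
  rcases Nat.eq_or_lt_of_le hd with h4 | h5
  · exact main_four hP h2 h4.symm (by rw [hrK]; exact hr) (by omega) hH
  · exact main_five (hP.pre h2K) h2 h5 (by rw [hrK]; exact hr) hH

end Cfsg.Agent.H925.Ext
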