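import Cfsg.Agent.H925.ExtTwo

/-!
# Self-adjoint quadratic field subalgebras in dimension `8`, minus type
-/

set_option autoImplicit false
set_option linter.unusedSectionVars false

namespace Cfsg.Agent.H925.Ext

open QuadraticMap Cfsg.Geo Cfsg.Agent.LieClassical.OrthCore Cfsg.Agent.LieClassical.OrthTrans
  Cfsg.Agent.LieClassical.OrthFinite Cfsg.Agent.H887.OmegaBridge
open scoped MatrixGroups Matrix

universe u

variable {ι : Type} [Fintype ι] [DecidableEq ι] {F : Type u} [Field F]

/-- **Self-adjoint quadratic field subalgebras, `n = 8`, minus type.** -/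
theorem selfAdjoint_isMaximalIn_eight_minus [Finite F] {Q : (ι → F) → F}
    (hQ : IsNondegenerateQuadraticForm Q) (h2 : (2 : F) ≠ 0) (hn : Fintype.card ι = 8)
    (hminus : ¬ IsPlusTypeOn Q ⊤) {K : Subalgebra F (Matrix ι ι F)} (hK : IsFieldSubalgebra 2 K)
    (hsa : IsSelfAdjointFor (polar Q) K) :
    IsMaximalIn (omegaGL Q) (subalgebraNormalizer K ⊓ omegaGL Q) := by
  refine isMaximalIn_of_mainC hQ (by omega) h2 Nat.prime_two hK hsa ?_
  intro K' _ _ _ _ _ _ τ QK hT hnd hrK hdim H hP hH
  have hd : Module.finrank K' (ι → F) = 4 := by omega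
  refine main_two hP h2 hd hrK ?_ hH
  intro v y hv hv0 hvy hy
  by_contra hyl
  apply hminus
  have hfin : FiniteDimensional K' (ι → F) := FiniteDimensional.right F K' (ι → F)
  have h1 : Module.finrank K' (Submodule.span K' {v, y}) = 2 := by
    apply le_antisymm (finrank_span_pair_le v y)
    have h3 : Submodule.span K' {v} < Submodule.span K' {v, y} := by
      refine lt_of_le_of_ne (Submodule.span_mono (by simp)) fun h => hyl ?_
      rw [line, Submodule.restrictScalars_mem, h]
      exact Submodule.subset_span (by simp)
    have h4 := Submodule.finrank_lt_finrank_of_lt h3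
    rw [finrank_span_singleton hv0] at h4
    omega
  refine ⟨(Submodule.span K' {v, y}).restrictScalars F, le_top, ?_, ?_⟩
  · intro w hw
    obtain ⟨a, b, rfl⟩ := Submodule.mem_span_pair.1 hw
    have h3 : QK (a • v + b • y) = 0 := by
      rw [Q_add, QuadraticMap.map_smul, QuadraticMap.map_smul, hv, hy, polar_smul_left,
        polar_smul_right, hvy]
      simp
    have h4 := hT.eq (a • v + b • y)
    rw [h3, map_zero] at h4
    exact h4
  · have h3 := Module.finrank_mul_finrank F K' (Submodule.span K' {v, y})
    rw [h1, hrK] at h3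
    rw [finrank_top, Module.finrank_fintype_fun_eq_card, hn]
    have h4 : Module.finrank F ((Submodule.span K' {v, y}).restrictScalars F) =
      Module.finrank F (Submodule.span K' {v, y}) := rfl
    omega

end Cfsg.Agent.H925.Ext
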