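import Cfsg.Agent.H925.ExtGen
import Cfsg.Agent.H925.ExtMain

/-!
# Overgroups of `Ω(V, QK)` in `Ω(V, τ ∘ QK)`, X: long root elements

If `H` contains the Siegel transformations `siegel Q x x'` for all `x, x'` in a singular `K`-line then
`E Q ≤ H` (degree at least `3`).
-/

set_option autoImplicit false
set_option linter.unusedSectionVars false

namespace Cfsg.Agent.H925.Ext

open QuadraticMap Cfsg.Agent.LieClassical.OrthCore Cfsg.Agent.LieClassical.OrthTrans
  Cfsg.Agent.LieClassical.OrthFinite Cfsg.Agent.H883.Root Cfsg.Agent.H883.Sub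
open scoped commutatorElement

variable {F K V : Type*} [Field F] [Field K] [Algebra F K] [AddCommGroup V]
  [Module F V] [Module K V] [IsScalarTower F K V]

variable {τ : K →ₗ[F] F} {QK : QuadraticForm K V} {Q : QuadraticForm F V}
  {H : Subgroup (V ≃ₗ[F] V)}

/-- The hypotheses, with the commutator subgroup of `O QK`. -/
structure PreC (τ : K →ₗ[F] F) (QK : QuadraticForm K V) (Q : QuadraticForm F V)
    (H : Subgroup (V ≃ₗ[F] V)) : Prop where
  tr : Tr τ QK Q
  nondeg : Nondeg QK
  hHO : H ≤ O Q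
  hE : ∀ g ∈ ⁅O QK, O QK⁆, (rs g : V ≃ₗ[F] V) ∈ H

theorem PreC.pre (hP : PreC τ QK Q H) (h2 : (2 : K) ≠ 0) : Pre τ QK Q H :=
  ⟨hP.tr, hP.nondeg, hP.hHO, fun g hg => hP.hE g (E_le_comm hP.nondeg h2 hg)⟩

theorem comm_le_O : ⁅O QK, O QK⁆ ≤ O QK := Subgroup.commutator_le_self _

section Long

variable [FiniteDimensional F V] [FiniteDimensional F K]

/-- All the long root elements of the singular `K`-lines. -/
def Long (QK : QuadraticForm K V) (Q : QuadraticForm F V) (H : Subgroup (V ≃ₗ[F] V)) : Prop :=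
  ∀ v, QK v = 0 → ∀ x ∈ line F K v, ∀ x' ∈ line F K v, Has Q H x x'

theorem Long.has_opp (hL : Long QK Q H) (hT : Tr τ QK Q) (hr : 3 ≤ Module.finrank F K) {v v' : V}
    (hyp : Hyp QK v v') {k k' : K} (h0 : τ (k' * k) = 0) : Has Q H (k' • v') (k • v) := by
  have hsv : ∀ x ∈ line F K v, Q x = 0 := line_sing hT hyp.left
  have hsv' : ∀ x ∈ line F K v', Q x = 0 := line_sing hT hyp.right
  have hp : ∀ a b : K, polar Q (a • v) (b • v') = τ (a * b) := by
    intro a b
    rw [hT.pol, polar_smul_left, polar_smul_right, hyp.pair]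
    simp
  by_cases hk : k = 0
  · subst hk
    rw [zero_smul]
    exact has_zero (hsv' _ (smul_mem_line k' v'))
  -- an element `l` of the kernel independent of `k`
  let f : K →ₗ[F] F := τ ∘ₗ (LinearMap.mulLeft F k')
  have hf : ∀ l, f l = τ (k' * l) := fun l => rfl
  have hker : Module.finrank F K ≤ Module.finrank F (LinearMap.ker f) + 1 := by
    have h1 := LinearMap.finrank_range_add_finrank_ker f
    have h2 : Module.finrank F (LinearMap.range f) ≤ 1 := by
      refine le_trans (Submodule.finrank_le _) ?_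
      rw [Module.finrank_self]
    omega
  obtain ⟨l, hl, hlk⟩ : ∃ l ∈ LinearMap.ker f, l ∉ Submodule.span F {k} := by
    by_contra hcon
    push Not at hcon
    have h1 := Submodule.finrank_mono (show LinearMap.ker f ≤ Submodule.span F {k} from hcon)
    rw [finrank_span_singleton hk] at h1
    omega
  have hl' : τ (k' * l) = 0 := hl
  -- a functional separating `l` and `k`
  obtain ⟨φ, hφl, hφk⟩ := Submodule.exists_le_ker_of_notMem hlk
  obtain ⟨δ, hδ⟩ := exists_delta hT.ne φ
  have hk0 : τ (k * δ) = 0 := by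
    rw [← hδ]
    exact hφk (Submodule.mem_span_singleton_self k)
  have hl0 : τ (l * δ) ≠ 0 := by rw [← hδ]; exact hφl
  have h1 : Has Q H (l • v) (k • v) := hL v hyp.left _ (smul_mem_line l v) _ (smul_mem_line k v)
  have h2 : Has Q H (k' • v') (δ • v') :=
    hL v' hyp.right _ (smul_mem_line k' v') _ (smul_mem_line δ v')
  have h3 := h1.comm' h2 (by rw [hp, mul_comm]; exact hl') (by rw [hp, mul_comm]; exact h0)
    (hsv _ (smul_mem_line k v)) (by rw [hp]; exact hk0)
  rw [hp] at h3
  -- rescale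
  have h4 : Has Q H (l • v) ((τ (l * δ))⁻¹ • k • v) := by
    rw [← smul_assoc]
    exact hL v hyp.left _ (smul_mem_line l v) _ (smul_mem_line _ v)
  have h5 := h4.comm' h2 (by rw [hp, mul_comm]; exact hl')
    (by rw [polar_smul_left, hp, mul_comm k k', h0, smul_zero])
    (by rw [QuadraticMap.map_smul, hsv _ (smul_mem_line k v), smul_zero])
    (by rw [polar_smul_left, hp, hk0, smul_zero])
  rw [hp, smul_smul, mul_inv_cancel₀ hl0, one_smul] at h5
  exact h5

theorem Long.full (hL : Long QK Q H) (hT : Tr τ QK Q) (hQ : Nondeg QK)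
    (hr : 3 ≤ Module.finrank F K) {v : V} (hv : QK v = 0) (hv0 : v ≠ 0) : Full Q H v := by
  obtain ⟨v', hyp⟩ := Cfsg.Agent.LieClassical.OrthTrans.exists_hyp hQ hv hv0
  -- partners
  have hpart : ∀ u, Hyp QK v u → ∀ γ : K, τ γ = 0 → Has Q H v (γ • u) := by
    intro u hu γ hγ
    have := hL.has_opp hT hr hu.symm (k := γ) (k' := 1) (by rwa [one_mul])
    rwa [one_smul] at this
  have hline : ∀ k : K, Has Q H v (k • v) := fun k =>
    hL v hv v (self_mem_line v) _ (smul_mem_line k v)
  obtain ⟨γ₁, hγ₁, hγ₁0⟩ : ∃ γ : K, τ γ = 0 ∧ γ ≠ 0 := by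
    have hker : LinearMap.ker τ ≠ ⊥ := by
      apply LinearMap.ker_ne_bot_of_finrank_lt
      rw [Module.finrank_self]
      omega
    obtain ⟨μ, hμ, hμ0⟩ := Submodule.exists_mem_ne_zero_of_ne_bot hker
    exact ⟨μ, hμ, hμ0⟩
  -- the vectors orthogonal to the plane
  have hperp : ∀ w, polar QK v w = 0 → polar QK v' w = 0 → Has Q H v w := by
    intro w hvw hv'w
    set w₂ := γ₁⁻¹ • w with hw₂
    have h1 : polar QK v w₂ = 0 := by rw [hw₂, polar_smul_right, hvw, smul_zero]
    have h2 : polar QK v' w₂ = 0 := by rw [hw₂, polar_smul_right, hv'w, smul_zero]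
    have h3 : Hyp QK v (v' + w₂ - QK w₂ • v) := by
      refine ⟨hv, sing_vec hyp.symm h2 h1, ?_⟩
      rw [polar_sub_right, polar_add_right, hyp.pair, h1, polar_smul_right, hyp.polar_left]
      simp
    have h4 := hpart _ h3 γ₁ hγ₁
    have h5 := (h4.sub (hpart _ hyp γ₁ hγ₁)).add (hline (γ₁ * QK w₂))
    refine h5.congr rfl ?_
    have e : γ₁ • w₂ = w := by rw [hw₂, smul_smul, mul_inv_cancel₀ hγ₁0, one_smul]
    rw [smul_sub, smul_add, e, smul_smul]
    abel
  refine ⟨line_sing hT hv v (self_mem_line v), fun x hx => ?_⟩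
  have e : x = Cfsg.Agent.LieClassical.OrthTrans.proj QK v v' x + polar QK v' x • v +
      polar QK v x • v' := by
    rw [Cfsg.Agent.LieClassical.OrthTrans.proj]; abel
  have h1 := hperp _ (polar_proj_left hyp x) (polar_proj_right hyp x)
  have h2 : τ (polar QK v x) = 0 := by rw [← hT.pol]; exact hx
  exact ((h1.add (hline (polar QK v' x))).add (hpart _ hyp _ h2)).congr rfl e.symm

/-- **Long root elements generate.** -/
theorem Long.E_le (hL : Long QK Q H) (hT : Tr τ QK Q) (hQ : Nondeg QK)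
    (hr : 3 ≤ Module.finrank F K) (hG : Good Q) {v : V} (hv : QK v = 0) (hv0 : v ≠ 0) :
    E Q ≤ H := by
  obtain ⟨v', hyp⟩ := Cfsg.Agent.LieClassical.OrthTrans.exists_hyp hQ hv hv0
  obtain ⟨κ, hκ⟩ := exists_tau_eq hT.ne 1
  have hκ0 : κ ≠ 0 := by
    rintro rfl
    rw [map_zero] at hκ
    exact zero_ne_one hκ
  refine E_le_of_full_pair hG (hL.full hT hQ hr hv hv0)
    (hL.full hT hQ hr (v := κ • v') (by rw [QuadraticMap.map_smul, hyp.right, smul_zero])
      (smul_ne_zero hκ0 hyp.right_ne)) ?_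
  rw [hT.pol, polar_smul_right, hyp.pair, smul_eq_mul, mul_one, hκ]
  exact one_ne_zero

/-- Transitivity of `H ∩ O QK` on singular vectors up to scalars of `F`. -/
def Trans (F : Type*) [Field F] [Algebra F K] [Module F V] [IsScalarTower F K V]
    (QK : QuadraticForm K V) (H : Subgroup (V ≃ₗ[F] V)) : Prop :=
  ∀ v v' : V, QK v = 0 → QK v' = 0 → v ≠ 0 → v' ≠ 0 → ∃ g ∈ O QK,
    (rs g : V ≃ₗ[F] V) ∈ H ∧ ∃ c : F, c ≠ 0 ∧ g v = c • v'

/-- One vector is enough. -/
theorem long_of_one (hT : Tr τ QK Q) (hHO : H ≤ O Q) (htr : Trans F QK H) {v : V}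
    (hv : QK v = 0) (hv0 : v ≠ 0) (h : ∀ x ∈ line F K v, Has Q H v x) : Long QK Q H := by
  intro v₁ hv₁ x hx x' hx'
  by_cases hx0 : x = 0
  · subst hx0
    exact has_zero_left x'
  obtain ⟨k, hk⟩ := mem_line.1 hx
  have hxs : QK x = 0 := by rw [← hk, QuadraticMap.map_smul, hv₁, smul_zero]
  obtain ⟨g, hg, hgH, c, hc, e⟩ := htr v x hv hxs hv0 hx0
  have hx'' : x' ∈ line F K x := by rw [line_eq_of_mem hx hx0]; exact hx'
  obtain ⟨l, rfl⟩ := mem_line.1 hx''
  have hc' : algebraMap F K c ≠ 0 := by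
    intro h0
    exact hc ((algebraMap F K).injective (by rw [h0, map_zero]))
  have h1 := (h (((algebraMap F K c)⁻¹ * (algebraMap F K c)⁻¹ * l) • v)
    (smul_mem_line _ v)).map (hHO hgH) hgH
  rw [rs_apply, rs_apply, map_smul, e] at h1
  have h2 := h1.smul_right (line_sing hT hv₁ x hx) (by
    rw [← algebraMap_smul K c x, smul_smul]
    rw [hT.pol, polar_smul_right, polar_self_of_sing hxs, smul_zero, map_zero])
  refine h2.congr rfl ?_
  rw [← algebraMap_smul K c x, ← algebraMap_smul K c, smul_smul, smul_smul]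
  congr 1
  field_simp

/-- **Hua's argument.**  One long root element in a `K`-line gives all of them, if all the multiplications
by elements of `K` are available. -/
theorem has_of_hua (hr : (Module.finrank F K).Prime) (h2 : (2 : K) ≠ 0) (hT : Tr τ QK Q)
    (hHO : H ≤ O Q) {v : V} (hv : QK v = 0)
    (htr : ∀ l : K, l ≠ 0 → ∃ g ∈ O QK, (rs g : V ≃ₗ[F] V) ∈ H ∧ g v = l • v) {s : K}
    (hs : ∀ c : F, s ≠ c • (1 : K)) (h : Has Q H v (s • v)) :
    ∀ x ∈ line F K v, Has Q H v x := by
  have hmove : ∀ l a b : K, l ≠ 0 → Has Q H (a • v) (b • v) →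
      Has Q H ((l * a) • v) ((l * b) • v) := by
    intro l a b hl hab
    obtain ⟨g, hg, hgH, e⟩ := htr l hl
    have := hab.map (hHO hgH) hgH
    rw [rs_apply, rs_apply, map_smul, map_smul, e, smul_smul, smul_smul] at this
    rwa [mul_comm l a, mul_comm l b]
  have hmove' : ∀ l b : K, l ≠ 0 → Has Q H v (b • v) → Has Q H (l • v) ((l * b) • v) := by
    intro l b hl hab
    have := hmove l 1 b hl (by rwa [one_smul])
    rwa [mul_one] at this
  have hQ0 : Q v = 0 := line_sing hT hv v (self_mem_line v)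
  have hp0 : ∀ b : K, polar Q v (b • v) = 0 := by
    intro b
    rw [hT.pol, polar_smul_right, polar_self_of_sing hv, smul_zero, map_zero]
  have hQb : ∀ b : K, Q (b • v) = 0 := fun b => line_sing hT hv _ (smul_mem_line b v)
  have hone : Has Q H v ((1 : K) • v) := by
    have := has_self (H := H) hQ0 (1 : F)
    rw [one_smul] at this
    rwa [one_smul]
  -- squares of `F`
  have hsq : ∀ (c : F) (b : K), Has Q H v (b • v) → Has Q H v (((c * c) • b) • v) := by
    intro c b hb
    by_cases hc : c = 0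
    · subst hc
      rw [zero_mul, zero_smul, zero_smul]
      exact has_zero hQ0
    have hc' : algebraMap F K c ≠ 0 := by
      intro h0
      exact hc ((algebraMap F K).injective (by rw [h0, map_zero]))
    have h1 := hmove' (algebraMap F K c) b hc' hb
    rw [algebraMap_smul] at h1
    have h3 := h1.smul_right hQ0 (hp0 _)
    refine h3.congr rfl ?_
    rw [← algebraMap_smul K c, smul_smul]
    congr 1
    rw [Algebra.smul_def, map_mul]
    ring
  have hadd : ∀ a b : K, Has Q H v (a • v) → Has Q H v (b • v) → Has Q H v ((a + b) • v) := by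
    intro a b ha hb
    rw [add_smul]
    exact ha.add hb
  have hsub : ∀ a b : K, Has Q H v (a • v) → Has Q H v (b • v) → Has Q H v ((a - b) • v) := by
    intro a b ha hb
    rw [sub_smul]
    exact ha.sub hb
  have h2F : (2 : F) ≠ 0 := by
    intro h0
    apply h2
    have := congrArg (algebraMap F K) h0
    rwa [map_ofNat, map_zero] at this
  have hFsmul : ∀ (c : F) (b : K), Has Q H v (b • v) → Has Q H v ((c • b) • v) := by
    intro c b hb
    have h1 := hsub _ _ (hsub _ _ (hsq (c / 2 + 1) b hb) (hsq (c / 2) b hb)) hb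
    refine h1.congr rfl ?_
    congr 1
    rw [← sub_smul, ← sub_eq_zero]
    have e : ((c / 2 + 1) * (c / 2 + 1) - c / 2 * (c / 2)) • b - b - c • b =
        (((c / 2 + 1) * (c / 2 + 1) - c / 2 * (c / 2)) - 1 - c) • b := by module
    rw [e]
    have e2 : ((c / 2 + 1) * (c / 2 + 1) - c / 2 * (c / 2)) - 1 - c = 0 := by
      field_simp
      ring
    rw [e2, zero_smul]
  have hinv : ∀ b : K, b ≠ 0 → Has Q H v (b • v) → Has Q H v (b⁻¹ • v) := by
    intro b hb0 hb
    have h1 := hb.swap (hQb b)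
    have h3 : -v = (-1 : K) • v := by rw [neg_one_smul]
    rw [h3] at h1
    have h4 := hmove b⁻¹ b (-1) (inv_ne_zero hb0) h1
    rw [inv_mul_cancel₀ hb0, one_smul] at h4
    have h5 := h4.neg
    refine h5.congr rfl ?_
    rw [mul_neg_one, neg_smul, neg_neg]
  have hsquare : ∀ a : K, Has Q H v (a • v) → Has Q H v ((a * a) • v) := by
    intro a ha
    by_cases h0 : a = 0
    · subst h0
      rw [mul_zero, zero_smul]
      exact has_zero hQ0
    by_cases h1 : a = 1
    · subst h1
      rw [mul_one]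
      exact hone
    have h1' : 1 - a ≠ 0 := sub_ne_zero.2 (Ne.symm h1)
    have h3 := hinv _ h1' (hsub _ _ hone ha)
    have h4 := hadd _ _ (hinv a h0 ha) h3
    have e : a⁻¹ + (1 - a)⁻¹ = (a * (1 - a))⁻¹ := by
      field_simp
      ring
    rw [e] at h4
    have h5 := hinv _ (inv_ne_zero (mul_ne_zero h0 h1')) h4
    rw [inv_inv] at h5
    have h6 := hsub _ _ ha h5
    refine h6.congr rfl ?_
    congr 1
    ring
  have hmul : ∀ a b : K, Has Q H v (a • v) → Has Q H v (b • v) → Has Q H v ((a * b) • v) := by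
    intro a b ha hb
    have h1 := hFsmul (2⁻¹) _ (hsub _ _ (hsub _ _ (hsquare _ (hadd _ _ ha hb)) (hsquare _ ha))
      (hsquare _ hb))
    refine h1.congr rfl ?_
    congr 1
    rw [Algebra.smul_def, map_inv₀, map_ofNat]
    field_simp
    ring
  let S : Submodule F K :=
    { carrier := {b | Has Q H v (b • v)}
      add_mem' := fun {a b} ha hb => hadd a b ha hb
      zero_mem' := by
        show Has Q H v ((0 : K) • v)
        rw [zero_smul]
        exact has_zero hQ0
      smul_mem' := fun c b hb => hFsmul c b hb }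
  have hS : S = ⊤ := eq_top_of_closed hr hs (S := S) hone fun t ht => hmul s t h ht
  intro x hx
  obtain ⟨k, rfl⟩ := mem_line.1 hx
  have : k ∈ S := by rw [hS]; trivial
  exact this

end Long

end Cfsg.Agent.H925.Ext
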