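import Cfsg.Agent.H925.ExtLong

/-!
# Overgroups of `Ω(V, QK)` in `Ω(V, τ ∘ QK)`, XI: orthogonal adjacent points
-/

set_option autoImplicit false
set_option linter.unusedSectionVars false

namespace Cfsg.Agent.H925.Ext

open QuadraticMap Cfsg.Agent.LieClassical.OrthCore Cfsg.Agent.LieClassical.OrthTrans
  Cfsg.Agent.LieClassical.OrthFinite Cfsg.Agent.H883.Root Cfsg.Agent.H883.Sub
open scoped commutatorElement

section Base

variable {F V : Type*} [Field F] [AddCommGroup V] [Module F V] {Q : QuadraticForm F V}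
  {H : Subgroup (V ≃ₗ[F] V)} {Z N : Submodule F V}

/-- Isometries trivial on `Z^⊥` commute with the isometries fixing `Z` pointwise. -/
theorem central' (hperp : ∀ x, (∀ y, (∀ z ∈ Z, polar Q z y = 0) → polar Q y x = 0) → x ∈ Z)
    {t g : V ≃ₗ[F] V} (ht : t ∈ O Q) (hg : g ∈ O Q)
    (htf : ∀ y, (∀ z ∈ Z, polar Q z y = 0) → t y = y) (hgZ : ∀ z ∈ Z, g z = z) :
    g * t = t * g := by
  have h2 : ∀ x, t x - x ∈ Z := by
    intro x
    apply hperp
    intro y hy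
    rw [polar_sub_right]
    nth_rewrite 1 [← htf y hy]
    rw [polar_map ht, sub_self]
  ext x
  show g (t x) = t (g x)
  have h3 : t (g x - x) = g x - x := by
    apply htf
    intro z hz
    rw [polar_sub_right]
    nth_rewrite 1 [← hgZ z hz]
    rw [polar_map hg, sub_self]
  have h4 : g (t x) = g x + (t x - x) := by
    have e : t x = x + (t x - x) := by abel
    conv_lhs => rw [e]
    rw [map_add, hgZ _ (h2 x)]
  rw [h4]
  rw [map_sub] at h3
  have h5 : t (g x) = g x - x + t x := by rw [← h3]; abel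
  rw [h5]; abel

/-- A complement of `Z` in `Z^⊥` containing two given vectors. -/
theorem exists_compl' [FiniteDimensional F V] (hQ : Nondeg Q) {Z : Submodule F V}
    (hZ : ∀ z ∈ Z, Q z = 0) {a b : V} (ha : ∀ z ∈ Z, polar Q z a = 0)
    (hb : ∀ z ∈ Z, polar Q z b = 0) (hdisj : Disjoint (Submodule.span F {a, b}) Z) :
    ∃ N : Submodule F V, a ∈ N ∧ b ∈ N ∧ (∀ z ∈ Z, ∀ x ∈ N, polar Q z x = 0) ∧
      (∀ x, (∀ z ∈ Z, polar Q z x = 0) → ∃ z ∈ Z, ∃ n ∈ N, x = z + n) ∧ NondegOn Q N ∧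
      Module.finrank F N + 2 * Module.finrank F Z = Module.finrank F V := by
  obtain ⟨N', hN', hcompl⟩ := hdisj.exists_isCompl
  have hZP : Z ≤ perp Q Z := by
    intro z hz
    exact mem_perp.2 fun z' hz' => polar_zero_of_ts hZ hz' hz
  have hsup : (N' ⊓ perp Q Z) ⊔ Z = perp Q Z := by
    rw [inf_comm, inf_sup_assoc_of_le _ hZP, hcompl.sup_eq_top, inf_top_eq]
  have hdec : ∀ x, (∀ z ∈ Z, polar Q z x = 0) → ∃ z ∈ Z, ∃ n ∈ N' ⊓ perp Q Z, x = z + n := by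
    intro x hx
    have : x ∈ (N' ⊓ perp Q Z) ⊔ Z := by rw [hsup]; exact mem_perp.2 hx
    obtain ⟨n, hn, z, hz, e⟩ := Submodule.mem_sup.1 this
    exact ⟨z, hz, n, hn, by rw [← e, add_comm]⟩
  have hinf : (N' ⊓ perp Q Z) ⊓ Z = ⊥ := by
    rw [← le_bot_iff, ← hcompl.inf_eq_bot]
    exact inf_le_inf_right _ inf_le_left
  refine ⟨N' ⊓ perp Q Z, ⟨hN' (Submodule.subset_span (by simp)), mem_perp.2 ha⟩,
    ⟨hN' (Submodule.subset_span (by simp)), mem_perp.2 hb⟩,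
    fun z hz x hx => mem_perp.1 hx.2 z hz, hdec, ?_, ?_⟩
  · intro y hy hy'
    have h1 : y ∈ perp Q (perp Q Z) := by
      refine mem_perp.2 fun x hx => ?_
      obtain ⟨z, hz, n, hn, rfl⟩ := hdec x (mem_perp.1 hx)
      rw [polar_add_left, mem_perp.1 hy.2 z hz, polar_comm, hy' n hn, add_zero]
    rw [perp_perp hQ] at h1
    have h2 : y ∈ (N' ⊓ perp Q Z) ⊓ Z := ⟨hy, h1⟩
    rw [hinf] at h2
    exact (Submodule.mem_bot F).1 h2
  · have h1 := Submodule.finrank_sup_add_finrank_inf_eq (N' ⊓ perp Q Z) Z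
    rw [hsup, hinf, finrank_bot, add_zero] at h1
    have h2 := finrank_perp hQ Z
    omega

/-- From `φ` to a rank one map, with the Siegel transformations of one singular vector only. -/
theorem phi_two (hG : Good (res Q N)) {φ : N →ₗ[F] Z} (h1 : Phi H φ) {y : N}
    (hy0 : y ≠ 0) (hF : Full (res Q N) (HN H Z N) y) : Phi H (r1 Q y (φ y)) := by
  have hy : res Q N y = 0 := hF.1
  obtain ⟨y', hyp⟩ := Cfsg.Agent.LieClassical.OrthTrans.exists_hyp hG.nondeg hy hy0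
  obtain ⟨v, v', hv, hyv, hyv', -, -⟩ := hG.exists_hyp2 hyp
  have hvy : polar (res Q N) v y = 0 := by rw [polar_comm]; exact hyv
  have hm1 : siegel (res Q N) v y hv.left hvy ∈ HN H Z N := by
    have k1 : Has (res Q N) (HN H Z N) y (-v) := hF.2 _ (by rw [polar_neg_right, hyv, neg_zero])
    have k2 := k1.swap (by rw [QuadraticMap.map_neg, hv.left])
    have k3 : Has (res Q N) (HN H Z N) ((-1 : F) • v) (-y) := by rw [neg_one_smul]; exact k2
    have k4 := k3.smul_right hv.left (by rw [polar_neg_right, hvy, neg_zero])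
    rw [neg_one_smul, neg_neg] at k4
    exact k4.mem hv.left hvy
  -- first commutator
  have h2 := (h1.comp hm1).sub h1
  set φ₁ : N →ₗ[F] Z := (φ ∘ₗ (siegel (res Q N) v y hv.left hvy : N →ₗ[F] N)) - φ with hφ₁
  have e1 : ∀ x : N, φ₁ x = polar (res Q N) v x • φ y - polar (res Q N) y x • φ v := by
    intro x
    have : φ₁ x = φ (siegel (res Q N) v y hv.left hvy x) - φ x := rfl
    rw [this, siegel_apply, hy]
    simp only [map_sub, map_add, map_smul, zero_mul, zero_smul, sub_zero]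
    abel
  -- second commutator
  have h3 := (h2.comp ((hF.2 v' hyv').mem hy hyv')).sub h2
  set φ₂ : N →ₗ[F] Z := (φ₁ ∘ₗ (siegel (res Q N) y v' hy hyv' : N →ₗ[F] N)) - φ₁ with hφ₂
  have e2 : φ₂ = r1 Q y (φ y) := by
    ext x
    have : φ₂ x = φ₁ (siegel (res Q N) y v' hy hyv' x) - φ₁ x := rfl
    rw [this, siegel_apply]
    have f1 : φ₁ y = 0 := by
      rw [e1, hvy, polar_self_of_sing hy, zero_smul, zero_smul, sub_zero]
    have f2 : φ₁ v' = φ y := by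
      rw [e1, hv.pair, hyv', zero_smul, one_smul, sub_zero]
    rw [map_sub, map_sub, map_add, map_smul, map_smul, map_smul, f1, f2, r1_apply]
    simp
  rwa [e2] at h3

/-- The Siegel transformation inducing a rank one `φ`. -/
theorem decomp' (hHO : H ≤ O Q) (hZs : ∀ z ∈ Z, Q z = 0)
    (hZN : ∀ z ∈ Z, ∀ x ∈ N, polar Q z x = 0)
    (hdec : ∀ x, (∀ z ∈ Z, polar Q z x = 0) → ∃ z ∈ Z, ∃ n ∈ N, x = z + n) {u : N} {z : Z}
    (h : Phi H (r1 Q u z)) :
    ∃ (c t : V ≃ₗ[F] V) (hz : Q (z : V) = 0) (hu : polar Q (z : V) (-(u : V)) = 0),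
      c ∈ H ∧ (∀ z ∈ Z, c z = z) ∧ t ∈ O Q ∧ (∀ y, (∀ z ∈ Z, polar Q z y = 0) → t y = y) ∧
      c = siegel Q (z : V) (-(u : V)) hz hu * t := by
  obtain ⟨c, hc, c1, c2⟩ := h
  have hz : Q (z : V) = 0 := hZs _ z.2
  have hu : polar Q (z : V) (-(u : V)) = 0 := by
    rw [polar_neg_right, hZN _ z.2 _ u.2, neg_zero]
  set s := siegel Q (z : V) (-(u : V)) hz hu with hs
  have s1 : ∀ z' ∈ Z, s z' = z' := by
    intro z' hz'
    apply siegel_fix
    · exact polar_zero_of_ts hZs z.2 hz'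
    · rw [polar_neg_left, polar_comm, hZN _ hz' _ u.2, neg_zero]
  have s2 : ∀ x : N, s (x : V) = c x := by
    intro x
    rw [c2, hs, siegel_apply, hZN _ z.2 _ x.2, polar_neg_left, r1_apply, polar_res]
    simp
  refine ⟨c, s⁻¹ * c, hz, hu, hc, c1, (O Q).mul_mem ((O Q).inv_mem (siegel_mem_O hz hu))
    (hHO hc), ?_, ?_⟩
  · intro y hy
    obtain ⟨z', hz', n, hn, rfl⟩ := hdec y hy
    show s⁻¹ (c (z' + n)) = z' + n
    apply inv_fix
    rw [map_add, map_add, s1 z' hz', c1 z' hz', s2 ⟨n, hn⟩]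
  · rw [mul_inv_cancel_left]

end Base

variable {F K V : Type*} [Field F] [Field K] [Algebra F K] [AddCommGroup V]
  [Module F V] [Module K V] [IsScalarTower F K V]

variable {τ : K →ₗ[F] F} {QK : QuadraticForm K V} {Q : QuadraticForm F V}
  {H : Subgroup (V ≃ₗ[F] V)}

section Fin

variable [FiniteDimensional F V] [FiniteDimensional F K]

/-- **Orthogonal adjacent points, the nonsingular case.** -/
theorem orth_adj [Finite F] (hP : Pre τ QK Q H) (h2 : (2 : K) ≠ 0) {v : V} (hv : QK v = 0)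
    (hv0 : v ≠ 0) {Y Z : Submodule F V} (hY : IsPt Q H Y) (hYs : ∀ x ∈ Y, Q x = 0)
    (hZX : Z ≤ line F K v) (hZY : Z ≤ Y) {a y : V} (ha : a ∈ line F K v) (haZ : a ∉ Z)
    (hspa : ∀ x ∈ line F K v, ∃ c : F, x - c • a ∈ Z) (hy : y ∈ Y) (hyZ : y ∉ Z)
    (hspy : ∀ x ∈ Y, ∃ c : F, x - c • y ∈ Z) (hvy : polar QK v y = 0) (hQy : QK y ≠ 0)
    (hdim : 2 * Module.finrank F Z + 5 ≤ Module.finrank F V) :
    ∃ z₀ ∈ Z, z₀ ≠ 0 ∧ ∃ (hz : Q z₀ = 0) (hu : polar Q z₀ (-y) = 0) (t : V ≃ₗ[F] V), t ∈ O Q ∧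
      (∀ x, (∀ z ∈ Z, polar Q z x = 0) → t x = x) ∧ siegel Q z₀ (-y) hz hu * t ∈ H := by
  have hT := hP.tr
  have hXs := line_sing hT hv
  have hZs : ∀ z ∈ Z, Q z = 0 := fun z hz => hYs z (hZY hz)
  have hQ : Nondeg Q := hT.nondeg hP.nondeg
  have hyl : y ∉ line F K v := by
    intro h
    obtain ⟨k, rfl⟩ := mem_line.1 h
    apply hQy
    rw [QuadraticMap.map_smul, hv, smul_zero]
  have hay : polar Q a y = 0 := by
    obtain ⟨k, rfl⟩ := mem_line.1 ha
    rw [hT.pol, polar_smul_left, hvy, smul_zero, map_zero]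
  have hdisj : Disjoint (Submodule.span F {a, y}) Z := by
    rw [Submodule.disjoint_def]
    intro x hx hxZ
    obtain ⟨c, d, rfl⟩ := Submodule.mem_span_pair.1 hx
    have hd : d = 0 := by
      by_contra hd
      apply hyl
      have h3 : d • y ∈ line F K v := by
        have := (line F K v).sub_mem (hZX hxZ) ((line F K v).smul_mem c ha)
        rwa [add_sub_cancel_left] at this
      have h4 := (line F K v).smul_mem d⁻¹ h3
      rwa [smul_smul, inv_mul_cancel₀ hd, one_smul] at h4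
    subst hd
    rw [zero_smul, add_zero] at hxZ ⊢
    by_cases hc : c = 0
    · rw [hc, zero_smul]
    · exfalso
      apply haZ
      have h4 := Z.smul_mem c⁻¹ hxZ
      rwa [smul_smul, inv_mul_cancel₀ hc, one_smul] at h4
  obtain ⟨N, haN, hyN, hZN, hdec, hN, hfin⟩ := exists_compl' hQ hZs
    (fun z hz => polar_zero_of_ts hXs (hZX hz) ha) (fun z hz => polar_zero_of_ts hYs (hZY hz) hy)
    hdisj
  have hG : Good (res Q N) := good_res hN (by omega)
  have hQy0 : Q y = 0 := hYs y hy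
  have hQa : Q a = 0 := hXs a ha
  obtain ⟨δ, hδ0, hδ⟩ := exists_delta_line hT.ne ha haZ hspa
  -- the two elements
  obtain ⟨h₂, hh₂, h₂Y, h₂Z⟩ := hY Z y (-a) hZY hy hyZ hspy (by
    intro x hx
    obtain ⟨c, hc⟩ := hspy x hx
    have e3 : x = (x - c • y) + c • y := by abel
    rw [polar_neg_right, e3, polar_add_left, hZN _ hc a haN, polar_smul_left,
      polar_comm Q y a, hay]
    simp)
  have hvy' : polar QK v (δ⁻¹ • y) = 0 := by rw [polar_smul_right, hvy, smul_zero]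
  set h₁ : V ≃ₗ[F] V := rs (siegel QK v (δ⁻¹ • y) hv hvy') with hh₁def
  have hh₁ : h₁ ∈ H := hP.hE _ (siegel_mem_E _ _)
  have h₁X : ∀ x ∈ line F K v, h₁ x = x := fun x hx => siegel_fix_line hv hvy' hx
  have h₁Z : ∀ x, (∀ z ∈ Z, polar Q z x = 0) → h₁ x - siegelLin Q a y x ∈ Z :=
    fun x hx => siegel_line hT hv ha hδ0 hδ hvy' hx
  have hc : h₁ * h₂⁻¹ ∈ H := H.mul_mem hh₁ (H.inv_mem hh₂)
  have h₂inv : ∀ z ∈ Z, h₂⁻¹ z = z := fun z hz => inv_fix (h₂Y z (hZY hz))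
  have hdiff : ∀ x : V, (∀ z ∈ Z, polar Q z x = 0) → (h₁ * h₂⁻¹) x - x ∈ Z := by
    intro x hx
    set x' := h₂⁻¹ x with hx'
    have hx'2 : h₂ x' = x := LinearEquiv.apply_symm_apply h₂ x
    have hx'3 : ∀ z ∈ Z, polar Q z x' = 0 := by
      intro z hz
      rw [← h₂inv z hz, hx', polar_map ((O Q).inv_mem (hP.hHO hh₂))]
      exact hx z hz
    have h5 := h₁Z x' hx'3
    have h6 := h₂Z x' hx'3
    have e5 : siegelLin Q y (-a) x' = siegelLin Q a y x' := by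
      rw [siegelLin_apply, siegelLin_apply, hQy0, QuadraticMap.map_neg, hQa, polar_neg_left]
      simp only [zero_mul, zero_smul]
      module
    rw [e5, hx'2] at h6
    have := Z.sub_mem h5 h6
    rw [sub_sub_sub_cancel_right] at this
    exact this
  have hcy : (h₁ * h₂⁻¹) y = y - (2 * (δ⁻¹ * QK y)) • v := by
    show h₁ (h₂⁻¹ y) = _
    rw [inv_fix (h₂Y y hy), hh₁def, rs_apply, siegel_apply, hvy, polar_smul_left,
      polar_self', smul_eq_mul]
    rw [zero_smul, mul_zero, zero_smul, sub_zero, add_zero]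
    congr 2
    ring
  let φ : N →ₗ[F] Z := LinearMap.codRestrict Z
    (((h₁ * h₂⁻¹ : V ≃ₗ[F] V) : V →ₗ[F] V) ∘ₗ N.subtype - N.subtype) (fun x =>
      hdiff x fun z hz => hZN z hz x x.2)
  have hφ : Phi H φ := by
    refine ⟨h₁ * h₂⁻¹, hc, fun z hz => ?_, fun x => ?_⟩
    · show h₁ (h₂⁻¹ z) = z
      rw [h₂inv z hz, h₁X z (hZX hz)]
    · show (h₁ * h₂⁻¹) (x : V) = x + ((h₁ * h₂⁻¹) (x : V) - x)
      abel
  have hφy : ((φ ⟨y, hyN⟩ : Z) : V) = -((2 * (δ⁻¹ * QK y)) • v) := by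
    show (h₁ * h₂⁻¹) y - y = _
    rw [hcy]; abel
  have hz0 : ((φ ⟨y, hyN⟩ : Z) : V) ≠ 0 := by
    rw [hφy, neg_ne_zero]
    exact smul_ne_zero (mul_ne_zero h2 (mul_ne_zero (inv_ne_zero hδ0) hQy)) hv0
  have hFy : Full (res Q N) (HN H Z N) ⟨y, hyN⟩ := full_HN hY hZY hZN hy hyN hyZ hspy hQy0
  have hyN0 : (⟨y, hyN⟩ : N) ≠ 0 := by
    intro h
    apply hyZ
    rw [show y = 0 from congrArg Subtype.val h]
    exact Z.zero_mem
  have h3 := phi_two hG hφ hyN0 hFy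
  obtain ⟨c, t, hz, hu, hcH, hcZ, htO, htf, e⟩ := decomp' hP.hHO hZs hZN hdec h3
  exact ⟨_, (φ ⟨y, hyN⟩).2, hz0, hz, hu, t, htO, htf, by rw [← e]; exact hcH⟩

/-- Consequence: commutators. -/
theorem has_of_conj (hQ : Nondeg Q) (hHO : H ≤ O Q) {Z : Submodule F V} {z₀ y : V}
    (hz₀ : z₀ ∈ Z) (hz : Q z₀ = 0) (hu : polar Q z₀ (-y) = 0)
    (hyZ : ∀ z ∈ Z, polar Q z y = 0) (hZs : ∀ z ∈ Z, Q z = 0) {t : V ≃ₗ[F] V} (ht : t ∈ O Q)
    (htf : ∀ x, (∀ z ∈ Z, polar Q z x = 0) → t x = x) (hm : siegel Q z₀ (-y) hz hu * t ∈ H)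
    {h : V ≃ₗ[F] V} (hh : h ∈ H) (hhZ : ∀ z ∈ Z, h z = z) : Has Q H z₀ (y - h y) := by
  set s := siegel Q z₀ (-y) hz hu with hs
  set c := s * t with hcdef
  have hperp : ∀ x, (∀ y, (∀ z ∈ Z, polar Q z y = 0) → polar Q y x = 0) → x ∈ Z := by
    intro x hx
    rw [← perp_perp hQ Z]
    exact mem_perp.2 fun y hy => hx y (mem_perp.1 hy)
  have hO : h ∈ O Q := hHO hh
  have k1 : h * t = t * h := central' hperp ht hO htf hhZ
  have e1 : h * c * h⁻¹ * c⁻¹ = h * s * h⁻¹ * s⁻¹ := by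
    have k2 : t * h⁻¹ = h⁻¹ * t := ((show Commute h t from k1).inv_left).symm
    rw [hcdef, mul_inv_rev]
    calc h * (s * t) * h⁻¹ * (t⁻¹ * s⁻¹) = h * s * (t * h⁻¹) * t⁻¹ * s⁻¹ := by group
      _ = h * s * h⁻¹ * s⁻¹ := by rw [k2]; group
  have hmem : h * s * h⁻¹ * s⁻¹ ∈ H := by
    rw [← e1]
    exact H.mul_mem (H.mul_mem (H.mul_mem hh hm) (H.inv_mem hh)) (H.inv_mem hm)
  have g1 : h z₀ = z₀ := hhZ z₀ hz₀
  have g3 : polar Q z₀ (h (-y)) = 0 := by
    nth_rewrite 1 [← g1]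
    rw [polar_map hO]
    exact hu
  have g4 : h * s * h⁻¹ = siegel Q z₀ (h (-y)) hz g3 := by
    have hz' : Q (h z₀) = 0 := by rw [g1]; exact hz
    have hw' : polar Q (h z₀) (h (-y)) = 0 := by rw [g1]; exact g3
    rw [hs, siegel_conj hO hz hu hz' hw']
    congr 1
  have g5 : s⁻¹ = siegel Q z₀ (-(-y)) hz (by rw [polar_neg_right, hu, neg_zero]) :=
    siegel_inv hz hu _
  have g6 : polar Q z₀ (h (-y) + -(-y)) = 0 := by
    rw [polar_add_right, g3, polar_neg_right, hu]; simp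
  rw [g4, g5, siegel_mul hz g3 _ g6] at hmem
  have g7 : Has Q H z₀ (h (-y) + -(-y)) := ⟨hz, g6, hmem⟩
  exact g7.congr rfl (by rw [map_neg]; abel)

end Fin

end Cfsg.Agent.H925.Ext
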