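import Cfsg.Agent.H925.ExtFourB

/-!
# Overgroups of `Ω(V, QK)` in `Ω(V, τ ∘ QK)`, XIV: `dim_K V = 4`, orthogonal adjacent points in a totally
singular `K`-plane
-/

set_option autoImplicit false
set_option linter.unusedSectionVars false

namespace Cfsg.Agent.H925.Ext

open QuadraticMap Cfsg.Agent.LieClassical.OrthCore Cfsg.Agent.LieClassical.OrthTrans
  Cfsg.Agent.LieClassical.OrthFinite Cfsg.Agent.H883.Root Cfsg.Agent.H883.Sub
open scoped commutatorElement

section Abs

variable {F V : Type*} [Field F] [AddCommGroup V] [Module F V]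

/-- The second difference of the conjugates of a unipotent. -/
theorem second_diff {ρ Ψ : V ≃ₗ[F] V} {S : Submodule F V} {η : V →ₗ[F] V}
    (h1 : ∀ x, Ψ x = x + η x) (hS1 : ∀ x, η x ∈ S) (hS2 : ∀ x ∈ S, η x = 0)
    (hρ : ∀ x ∈ S, ρ⁻¹ x ∈ S) (x : V) :
    (ρ * ρ * Ψ * ρ⁻¹ * ρ⁻¹ * (ρ * Ψ⁻¹ * Ψ⁻¹ * ρ⁻¹) * Ψ) x =
      x + η x - (2 : F) • ρ (η (ρ⁻¹ x)) + ρ (ρ (η (ρ⁻¹ (ρ⁻¹ x)))) := by
  have hinv : ∀ x, Ψ⁻¹ x = x - η x := by
    intro x
    apply Ψ.injective
    have : Ψ (Ψ⁻¹ x) = x := LinearEquiv.apply_symm_apply Ψ x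
    rw [this, h1, map_sub, hS2 _ (hS1 x)]
    abel
  have hρ1 : ∀ x, ρ (ρ⁻¹ x) = x := fun x => LinearEquiv.apply_symm_apply ρ x
  have e0 : ∀ z, Ψ⁻¹ (Ψ⁻¹ z) = z - (2 : F) • η z := by
    intro z
    rw [hinv (Ψ⁻¹ z), hinv z, map_sub, hS2 _ (hS1 z), sub_zero, two_smul]
    abel
  have e1 : ρ (Ψ⁻¹ (Ψ⁻¹ (ρ⁻¹ (Ψ x)))) = x + η x - (2 : F) • ρ (η (ρ⁻¹ x)) := by
    have e : η (ρ⁻¹ (Ψ x)) = η (ρ⁻¹ x) := by
      rw [h1 x, map_add, map_add, hS2 _ (hρ _ (hS1 x)), add_zero]
    rw [e0, map_sub, hρ1, map_smul, e, h1]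
  show ρ (ρ (Ψ (ρ⁻¹ (ρ⁻¹ (ρ (Ψ⁻¹ (Ψ⁻¹ (ρ⁻¹ (Ψ x))))))))) = _
  rw [e1, h1, map_add ρ, map_add ρ, hρ1, hρ1]
  congr 3
  have e2 : ρ⁻¹ (ρ⁻¹ (x + η x - (2 : F) • ρ (η (ρ⁻¹ x)))) =
      ρ⁻¹ (ρ⁻¹ x) + (ρ⁻¹ (ρ⁻¹ (η x)) - (2 : F) • ρ⁻¹ (η (ρ⁻¹ x))) := by
    have hρ2 : ∀ x, ρ⁻¹ (ρ x) = x := fun x => LinearEquiv.symm_apply_apply ρ x
    rw [map_sub ρ⁻¹, map_sub ρ⁻¹, map_add ρ⁻¹, map_add ρ⁻¹, map_smul ρ⁻¹, map_smul ρ⁻¹, hρ2]
    abel
  rw [e2, map_add η, hS2 _ (S.sub_mem (hρ _ (hρ _ (hS1 x))) (S.smul_mem _ (hρ _ (hS1 _)))),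
    add_zero]

end Abs

variable {F K V : Type*} [Field F] [Field K] [Algebra F K] [AddCommGroup V]
  [Module F V] [Module K V] [IsScalarTower F K V]

variable {τ : K →ₗ[F] F} {QK : QuadraticForm K V} {Q : QuadraticForm F V}
  {H : Subgroup (V ≃ₗ[F] V)}

section Fin

variable [FiniteDimensional F V] [FiniteDimensional F K]

/-- The pairs of vectors with prescribed products with `v` and `y`. -/
theorem exists_dual_pair (hQ : Nondeg QK) {v y : V} (hv : QK v = 0) (hv0 : v ≠ 0)
    (hvy : polar QK v y = 0) (hyX : y ∉ line F K v) : ∃ a b : V, polar QK v a = 1 ∧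
      polar QK y a = 0 ∧ polar QK v b = 0 ∧ polar QK y b = 1 := by
  obtain ⟨v', hyp⟩ := Cfsg.Agent.LieClassical.OrthTrans.exists_hyp hQ hv hv0
  set y₁ := y - polar QK v' y • v with hy₁
  have hy₁0 : y₁ ≠ 0 := by
    intro h
    apply hyX
    rw [sub_eq_zero] at h
    rw [h]
    exact smul_mem_line _ v
  have h1 : polar QK v y₁ = 0 := by
    rw [hy₁, polar_sub_right, polar_smul_right, hvy, hyp.polar_left, smul_zero, sub_zero]
  have h2 : polar QK v' y₁ = 0 := by
    rw [hy₁, polar_sub_right, polar_smul_right, hyp.pair', smul_eq_mul, mul_one, sub_self]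
  obtain ⟨c, hc⟩ := hQ.exists_polar_eq hy₁0 1
  set c₁ := Cfsg.Agent.LieClassical.OrthTrans.proj QK v v' c with hc₁
  have h3 : polar QK v c₁ = 0 := polar_proj_left hyp c
  have h4 : polar QK y₁ c₁ = 1 := by
    rw [hc₁, polar_proj_of_perp h1 h2, hc]
  have h5 : polar QK y c₁ = 1 := by
    have e : y = y₁ + polar QK v' y • v := by rw [hy₁]; abel
    rw [e, polar_add_left, h4, polar_smul_left, h3, smul_zero, add_zero]
  refine ⟨v' - polar QK y v' • c₁, c₁, ?_, ?_, h3, h5⟩
  · rw [polar_sub_right, polar_smul_right, hyp.pair, h3, smul_zero, sub_zero]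
  · rw [polar_sub_right, polar_smul_right, h5, smul_eq_mul, mul_one, sub_self]

/-- The data of an orthogonal adjacent pair in a totally singular `K`-plane, `dim_K V = 4`. -/
theorem exists_theta (hP : PreC τ QK Q H) (h2 : (2 : K) ≠ 0) (hr : 2 ≤ Module.finrank F K)
    (hd : Module.finrank K V = 4) {v y : V} (hv : QK v = 0)
    (hv0 : v ≠ 0) (hy : QK y = 0) (hvy : polar QK v y = 0) (hyX : y ∉ line F K v)
    {Y : Submodule F V} (hY : IsPoint QK H Y) {δ : K} (hδ : δ ≠ 0)
    (hsp : ∀ x ∈ Y, ∃ (k : K) (c : F), τ (k * δ) = 0 ∧ x = k • v + c • y) :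
    ∃ v', QK v' = 0 ∧ v' ≠ 0 ∧ ∃ Θ ∈ H, (∀ x, polar QK v' x = 0 → Θ x = x) ∧ ∃ e, Θ e ≠ e := by
  have hT := hP.tr
  have hPre := hP.pre h2
  obtain ⟨a, b, hva, hya, hvb, hyb⟩ := exists_dual_pair (F := F) hP.nondeg hv hv0 hvy hyX
  obtain ⟨γ, hγ, hγ0⟩ : ∃ γ : K, τ γ = 0 ∧ γ ≠ 0 := by
    have hker : LinearMap.ker τ ≠ ⊥ := by
      apply LinearMap.ker_ne_bot_of_finrank_lt
      rw [Module.finrank_self]
      omega
    obtain ⟨μ, hμ, hμ0⟩ := Submodule.exists_mem_ne_zero_of_ne_bot hker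
    exact ⟨μ, hμ, hμ0⟩
  obtain ⟨g, hg, v', hv', hv'0, e⟩ := hY.exists_line
  have hgO := hP.hHO hg
  have hg1 : ∀ x, g (g⁻¹ x) = x := fun x => LinearEquiv.apply_symm_apply g x
  have hg2 : ∀ x, g⁻¹ (g x) = x := fun x => LinearEquiv.symm_apply_apply g x
  -- the orthogonal of `Y`
  have hYperp : ∀ t : V, (∀ k : K, τ (k * δ) = 0 → τ (k * polar QK v t) = 0) →
      τ (polar QK y t) = 0 → polar QK v' (g t) = 0 := by
    intro t h1 h3
    apply hT.perp_line
    intro k
    have : k • v' ∈ Y.map (g : V →ₗ[F] V) := by rw [e]; exact smul_mem_line k v'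
    obtain ⟨x, hx, ex⟩ := this
    rw [← ex]
    show polar Q (g x) (g t) = 0
    rw [polar_map hgO]
    obtain ⟨k', c, hk', rfl⟩ := hsp x hx
    rw [polar_add_left, polar_smul_left, hT.pol, hT.pol, polar_smul_left, smul_eq_mul, h1 k' hk',
      h3]
    simp
  have hYperp' : ∀ w : V, polar QK v (g⁻¹ w) = 0 → polar QK y (g⁻¹ w) = 0 →
      polar QK v' w = 0 := by
    intro w h1 h3
    rw [← hg1 w]
    apply hYperp
    · intro k _
      rw [h1, mul_zero, map_zero]
    · rw [h3, map_zero]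
  -- the alternating form
  set D : V → V → K := fun t t' => polar QK v t * polar QK y t' - polar QK y t * polar QK v t'
    with hD
  have hDadd : ∀ a b c d : V, D (a + b) (c + d) = D a c + D a d + D b c + D b d := by
    intro a b c d
    simp only [hD, polar_add_right]
    ring
  have hDswap : ∀ a b : V, D a b = -D b a := by
    intro a b
    simp only [hD]
    ring
  obtain ⟨w, k, hw, hwk⟩ : ∃ (w : V) (k : K), polar QK v' w = 0 ∧ D (g⁻¹ w) (g⁻¹ (k • w)) ≠ 0 := by
    by_contra hcon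
    push Not at hcon
    have hpolz : ∀ w w' : V, polar QK v' w = 0 → polar QK v' w' = 0 → ∀ k : K,
        D (g⁻¹ (k • w)) (g⁻¹ w') = D (g⁻¹ w) (g⁻¹ (k • w')) := by
      intro w w' h1 h3 k
      have h4 := hcon (w + w') k (by rw [polar_add_right, h1, h3, add_zero])
      rw [smul_add, map_add, map_add, hDadd, hcon w k h1, hcon w' k h3] at h4
      rw [hDswap (g⁻¹ (k • w))]
      linear_combination -h4
    set t₁ := δ • a with ht₁
    set t₂ := γ • b with ht₂
    have hpt₁ : polar QK v t₁ = δ := by rw [ht₁, polar_smul_right, hva, smul_eq_mul, mul_one]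
    have hqt₁ : polar QK y t₁ = 0 := by rw [ht₁, polar_smul_right, hya, smul_zero]
    have hpt₂ : polar QK v t₂ = 0 := by rw [ht₂, polar_smul_right, hvb, smul_zero]
    have hqt₂ : polar QK y t₂ = γ := by rw [ht₂, polar_smul_right, hyb, smul_eq_mul, mul_one]
    have ht₁' : polar QK v' (g t₁) = 0 := by
      apply hYperp
      · intro k hk
        rw [hpt₁, hk]
      · rw [hqt₁, map_zero]
    have ht₂' : polar QK v' (g t₂) = 0 := by
      apply hYperp
      · intro k _
        rw [hpt₂, mul_zero, map_zero]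
      · rw [hqt₂, hγ]
    have hclosed : ∀ w : V, polar QK v (g⁻¹ w) = 0 → polar QK y (g⁻¹ w) = 0 → ∀ k : K,
        polar QK v (g⁻¹ (k • w)) = 0 ∧ polar QK y (g⁻¹ (k • w)) = 0 := by
      intro w h1 h3 k
      have h4 := hYperp' w h1 h3
      have h5 := hpolz w _ h4 ht₁' k
      have h6 := hpolz w _ h4 ht₂' k
      rw [hg2] at h5 h6
      simp only [hD, h1, h3, zero_mul, sub_zero, hpt₁, hqt₁, hpt₂, hqt₂, mul_zero, zero_sub,
        neg_eq_zero] at h5 h6
      exact ⟨(mul_eq_zero.1 h6).resolve_right hγ0, (mul_eq_zero.1 h5).resolve_right hδ⟩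
    let S : Submodule K V :=
      { carrier := {w | polar QK v (g⁻¹ w) = 0 ∧ polar QK y (g⁻¹ w) = 0}
        add_mem' := by
          rintro a b ⟨h1, h3⟩ ⟨h4, h5⟩
          constructor
          · rw [map_add, polar_add_right, h1, h4, add_zero]
          · rw [map_add, polar_add_right, h3, h5, add_zero]
        zero_mem' := by
          constructor
          · rw [map_zero, polar_zero_right]
          · rw [map_zero, polar_zero_right]
        smul_mem' := fun k w hw => hclosed w hw.1 hw.2 k }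
    have hSmem : ∀ w, w ∈ S ↔ polar QK v (g⁻¹ w) = 0 ∧ polar QK y (g⁻¹ w) = 0 := fun w => Iff.rfl
    set T : Submodule K V := perp QK (Submodule.span K {v, y}) with hTdef
    have hTmem : ∀ t, t ∈ T ↔ polar QK v t = 0 ∧ polar QK y t = 0 := by
      intro t
      rw [hTdef, mem_perp]
      constructor
      · intro h
        exact ⟨h v (Submodule.subset_span (by simp)), h y (Submodule.subset_span (by simp))⟩
      · rintro ⟨h1, h3⟩ x hx
        obtain ⟨c, d, rfl⟩ := Submodule.mem_span_pair.1 hx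
        rw [polar_add_left, polar_smul_left, polar_smul_left, h1, h3]
        simp
    have hST : S.restrictScalars F = (T.restrictScalars F).map (g : V →ₗ[F] V) := by
      ext w
      constructor
      · intro hw
        exact ⟨g⁻¹ w, (hTmem _).2 hw, hg1 w⟩
      · rintro ⟨t, ht, rfl⟩
        show g t ∈ S
        rw [hSmem, hg2]
        exact (hTmem _).1 ht
    have : FiniteDimensional K V := FiniteDimensional.right F K V
    have hfS : Module.finrank K T = Module.finrank K S := by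
      have h1 : Module.finrank F (S.restrictScalars F) = Module.finrank F (T.restrictScalars F) := by
        rw [hST]
        exact LinearEquiv.finrank_map_eq g _
      have h3 : Module.finrank F S = Module.finrank F T := h1
      rw [← Module.finrank_mul_finrank F K S, ← Module.finrank_mul_finrank F K T] at h3
      exact (Nat.eq_of_mul_eq_mul_left (by omega) h3).symm
    have h3 := finrank_perp hP.nondeg (Submodule.span K {v, y})
    rw [← hTdef] at h3
    have h4 : Module.finrank K (Submodule.span K {v, y}) ≤ 2 := finrank_span_pair_le v y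
    set W : Submodule K V := perp QK (Submodule.span K {v'}) with hW
    have hWmem : ∀ t, t ∈ W ↔ polar QK v' t = 0 := by
      intro t
      rw [hW, mem_perp]
      constructor
      · intro h
        exact h v' (Submodule.subset_span (by simp))
      · rintro h1 x hx
        obtain ⟨c, rfl⟩ := Submodule.mem_span_singleton.1 hx
        rw [polar_smul_left, h1, smul_zero]
    have h5 := finrank_perp hP.nondeg (Submodule.span K {v'})
    rw [← hW, finrank_span_singleton hv'0] at h5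
    have hx₁S : g t₁ ∉ S := by
      rw [hSmem, hg2, hpt₁]
      exact fun h => hδ h.1
    obtain ⟨c, hc⟩ := exists_sub_mem (F := K) (X := W) (Z := S)
      (fun w hw => (hWmem w).2 (hYperp' w hw.1 hw.2)) ((hWmem _).2 ht₁') hx₁S (by omega) (g t₂)
      ((hWmem _).2 ht₂')
    rw [hSmem, map_sub, hg2] at hc
    have h6 : D t₁ t₂ = D t₁ (g⁻¹ (c • g t₁)) := by
      obtain ⟨h7, h8⟩ := hc
      rw [polar_sub_right, sub_eq_zero] at h7 h8
      simp only [hD]
      rw [h7, h8]
    have h7 := hcon (g t₁) c ht₁'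
    rw [hg2] at h7
    rw [h7] at h6
    simp only [hD, hpt₁, hqt₁, hpt₂, hqt₂] at h6
    have h8 : δ * γ = 0 := by linear_combination h6
    exact (mul_ne_zero hδ hγ0) h8
  -- the unipotent
  obtain ⟨κ, hκ⟩ : ∃ κ : K, τ (κ * D (g⁻¹ w) (g⁻¹ (k • w))) ≠ 0 := by
    by_contra hcon
    push Not at hcon
    exact hwk (tau_ext hT.ne hcon)
  have hvκ : polar QK v (κ • y) = 0 := by rw [polar_smul_right, hvy, smul_zero]
  set Ψ : V ≃ₗ[F] V := g * rs (siegel QK v (κ • y) hv hvκ) * g⁻¹ with hΨ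
  have hΨH : Ψ ∈ H := H.mul_mem (H.mul_mem hg (hPre.hE _ (siegel_mem_E _ _))) (H.inv_mem hg)
  set η : V →ₗ[F] V := (Ψ : V →ₗ[F] V) - LinearMap.id with hη
  have hηapp : ∀ x, η x = g ((polar QK v (g⁻¹ x) * κ) • y - (κ * polar QK y (g⁻¹ x)) • v) := by
    intro x
    show g (siegel QK v (κ • y) hv hvκ (g⁻¹ x)) - x = _
    nth_rewrite 2 [← hg1 x]
    rw [← map_sub]
    congr 1
    rw [siegel_apply, QuadraticMap.map_smul, hy, polar_smul_left]
    simp only [smul_eq_mul, mul_zero, zero_mul, zero_smul, sub_zero, smul_smul]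
    abel
  have hΨη : ∀ x, Ψ x = x + η x := by
    intro x
    show Ψ x = x + (Ψ x - x)
    abel
  let S : Submodule F V :=
    { carrier := {w | polar QK v (g⁻¹ w) = 0 ∧ polar QK y (g⁻¹ w) = 0}
      add_mem' := by
        rintro a b ⟨h1, h3⟩ ⟨h4, h5⟩
        constructor
        · rw [map_add, polar_add_right, h1, h4, add_zero]
        · rw [map_add, polar_add_right, h3, h5, add_zero]
      zero_mem' := by
        constructor
        · rw [map_zero, polar_zero_right]
        · rw [map_zero, polar_zero_right]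
      smul_mem' := by
        rintro c w ⟨h1, h3⟩
        constructor
        · rw [map_smul, ← algebraMap_smul K c, polar_smul_right, h1, smul_zero]
        · rw [map_smul, ← algebraMap_smul K c, polar_smul_right, h3, smul_zero] }
  have hyv : polar QK y v = 0 := by rw [polar_comm]; exact hvy
  have hS1 : ∀ x, η x ∈ S := by
    intro x
    rw [hηapp]
    show polar QK v (g⁻¹ (g _)) = 0 ∧ polar QK y (g⁻¹ (g _)) = 0
    rw [hg2]
    constructor
    · rw [polar_sub_right, polar_smul_right, polar_smul_right, hvy, polar_self_of_sing hv]; simp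
    · rw [polar_sub_right, polar_smul_right, polar_smul_right, hyv, polar_self_of_sing hy]; simp
  have hS2 : ∀ x ∈ S, η x = 0 := by
    rintro x ⟨h1, h3⟩
    rw [hηapp, h1, h3]
    simp
  have hS3 : ∀ x ∈ S, polar QK v' x = 0 := fun x hx => hYperp' x hx.1 hx.2
  have hS4 : ∀ k : K, k • v' ∈ S := by
    intro k
    have : k • v' ∈ Y.map (g : V →ₗ[F] V) := by rw [e]; exact smul_mem_line k v'
    obtain ⟨x, hx, ex⟩ := this
    obtain ⟨k', c, hk', rfl⟩ := hsp x hx
    rw [← ex]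
    show polar QK v (g⁻¹ (g _)) = 0 ∧ polar QK y (g⁻¹ (g _)) = 0
    rw [hg2]
    constructor
    · rw [polar_add_right, ← algebraMap_smul K c, polar_smul_right, polar_smul_right, hvy,
        polar_self_of_sing hv]
      simp
    · rw [polar_add_right, ← algebraMap_smul K c, polar_smul_right, polar_smul_right, hyv,
        polar_self_of_sing hy]
      simp
  -- the transvection
  have hw' : polar QK v' (-w) = 0 := by rw [polar_neg_right, hw, neg_zero]
  set ρ : V ≃ₗ[F] V := rs (siegel QK v' w hv' hw) with hρ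
  have hρH : ρ ∈ H := hPre.hE _ (siegel_mem_E _ _)
  have hρinv : ρ⁻¹ = rs (siegel QK v' (-w) hv' hw') := by
    rw [hρ, ← map_inv, siegel_inv hv' hw hw']
  have hρapp : ∀ x, polar QK v' x = 0 → ρ x = x - polar QK w x • v' := by
    intro x hx
    rw [hρ, rs_apply, siegel_apply, hx]
    simp
  have hρiapp : ∀ x, ρ⁻¹ x = x - polar QK v' x • w +
      (polar QK w x - QK w * polar QK v' x) • v' := by
    intro x
    rw [hρinv, rs_apply, siegel_apply, polar_neg_left, QuadraticMap.map_neg]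
    module
  have hρS : ∀ x ∈ S, ρ⁻¹ x ∈ S := by
    intro x hx
    rw [hρiapp, hS3 x hx, zero_smul, sub_zero]
    exact S.add_mem hx (hS4 _)
  have hv'v' : polar QK v' v' = 0 := polar_self_of_sing hv'
  set Θ : V ≃ₗ[F] V := ρ * ρ * Ψ * ρ⁻¹ * ρ⁻¹ * (ρ * Ψ⁻¹ * Ψ⁻¹ * ρ⁻¹) * Ψ with hΘ
  have hΘH : Θ ∈ H := by
    have h1 := H.inv_mem hρH
    have h3 := H.inv_mem hΨH
    exact H.mul_mem (H.mul_mem (H.mul_mem (H.mul_mem (H.mul_mem (H.mul_mem hρH hρH) hΨH) h1) h1)
      (H.mul_mem (H.mul_mem (H.mul_mem hρH h3) h3) h1)) hΨH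
  have hρη : ∀ z, ρ (η z) = η z - polar QK w (η z) • v' := fun z => hρapp _ (hS3 _ (hS1 z))
  have hρρη : ∀ z, ρ (ρ (η z)) = η z - (2 * polar QK w (η z)) • v' := by
    intro z
    have h3 : polar QK v' (η z - polar QK w (η z) • v') = 0 := by
      rw [polar_sub_right, hS3 _ (hS1 z), polar_smul_right, hv'v', smul_zero, sub_zero]
    rw [hρη, hρapp _ h3, polar_sub_right, polar_smul_right, polar_comm QK w v', hw, smul_zero,
      sub_zero]
    module
  have hΘapp : ∀ x, Θ x = x + (2 * polar QK w (η (polar QK v' x • w))) • v' := by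
    intro x
    rw [hΘ, second_diff hΨη hS1 hS2 hρS x, hρη, hρρη]
    have e1 : η (ρ⁻¹ x) = η x - η (polar QK v' x • w) := by
      rw [hρiapp, map_add, map_sub, hS2 _ (hS4 _), add_zero]
    have e2 : polar QK v' (ρ⁻¹ x) = polar QK v' x := by
      rw [hρiapp, polar_add_right, polar_sub_right, polar_smul_right, polar_smul_right, hw, hv'v']
      simp
    have e3 : η (ρ⁻¹ (ρ⁻¹ x)) = η x - η (polar QK v' x • w) - η (polar QK v' x • w) := by
      rw [hρiapp (ρ⁻¹ x), map_add, map_sub, hS2 _ (hS4 _), add_zero, e1, e2]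
    rw [e1, e3, polar_sub_right, polar_sub_right, polar_sub_right, two_smul]
    module
  obtain ⟨v'', hyp⟩ := Cfsg.Agent.LieClassical.OrthTrans.exists_hyp hP.nondeg hv' hv'0
  refine ⟨v', hv', hv'0, Θ, hΘH, fun x hx => ?_, v'', fun h0 => ?_⟩
  · rw [hΘapp, hx, zero_smul, map_zero, polar_zero_right, mul_zero, zero_smul, add_zero]
  · rw [hΘapp, hyp.pair, one_smul, add_eq_left, smul_eq_zero] at h0
    have h3 := (mul_eq_zero.1 (h0.resolve_right hv'0)).resolve_left h2
    apply hκ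
    have h4 : polar Q (k • w) (η w) = 0 := by
      rw [hT.pol, polar_smul_left, h3, smul_zero, map_zero]
    rw [hηapp] at h4
    nth_rewrite 1 [← hg1 (k • w)] at h4
    rw [polar_map hgO, hT.pol, polar_sub_right, polar_smul_right, polar_smul_right,
      polar_comm QK _ y, polar_comm QK _ v] at h4
    rw [← h4]
    congr 1
    simp only [hD, smul_eq_mul]
    ring

end Fin

end Cfsg.Agent.H925.Ext
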