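import Cfsg.Agent.H925.ExtThetaB
import Cfsg.Agent.H925.ExtGeo
import Cfsg.Agent.H925.OrthType

/-!
# Overgroups of `Ω(V, QK)` in `Ω(V, τ ∘ QK)`, XVI: `dim_K V = 4`, degree `2`, minus type
-/

set_option autoImplicit false
set_option linter.unusedSectionVars false

namespace Cfsg.Agent.H925.Ext

open QuadraticMap Cfsg.Agent.LieClassical.OrthCore Cfsg.Agent.LieClassical.OrthTrans
  Cfsg.Agent.LieClassical.OrthFinite Cfsg.Agent.H883.Root Cfsg.Agent.H883.Sub
open scoped commutatorElement

section Fld

variable {F K : Type*} [Field F] [Field K] [Algebra F K]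

/-- The elements of the base field are squares in a quadratic extension. -/
theorem isSquare_of_deg_two [Finite F] [Finite K] (h2 : (2 : K) ≠ 0)
    (hr : Module.finrank F K = 2) (c : F) : IsSquare (algebraMap F K c) := by
  classical
  have := Fintype.ofFinite F
  have := Fintype.ofFinite K
  by_cases hc : c = 0
  · rw [hc, map_zero]
    exact IsSquare.zero
  have hK : ringChar K ≠ 2 := by
    intro h
    apply h2
    have := (ringChar.spec K 2).2 (by rw [h])
    exact_mod_cast this
  have hc' : algebraMap F K c ≠ 0 := by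
    rw [Ne, map_eq_zero]
    exact hc
  rw [FiniteField.isSquare_iff hK hc']
  have h1 : Fintype.card K = Fintype.card F ^ 2 := by
    rw [Module.card_eq_pow_finrank (K := F) (V := K), hr]
  have h3 : Fintype.card K % 2 = 1 := FiniteField.odd_card_of_char_ne_two hK
  have h4 : Fintype.card F % 2 = 1 := by
    rcases Nat.mod_two_eq_zero_or_one (Fintype.card F) with h | h
    · rw [h1, Nat.pow_mod, h] at h3
      norm_num at h3
    · exact h
  obtain ⟨m, hm⟩ : ∃ m, Fintype.card F = 2 * m + 1 := ⟨Fintype.card F / 2, by omega⟩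
  have h5 : Fintype.card K / 2 = (Fintype.card F - 1) * (m + 1) := by
    rw [h1, hm]
    have : (2 * m + 1) ^ 2 = 2 * ((2 * m) * (m + 1)) + 1 := by ring
    rw [this]
    have e : 2 * m + 1 - 1 = 2 * m := by omega
    rw [e]
    omega
  rw [h5, pow_mul, ← map_pow, FiniteField.pow_card_sub_one_eq_one c hc, map_one, one_pow]

end Fld

variable {F K V : Type*} [Field F] [Field K] [Algebra F K] [AddCommGroup V]
  [Module F V] [Module K V] [IsScalarTower F K V]

variable {τ : K →ₗ[F] F} {QK : QuadraticForm K V} {Q : QuadraticForm F V}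
  {H : Subgroup (V ≃ₗ[F] V)}

section Fin

variable [FiniteDimensional F V] [FiniteDimensional F K]

/-- A root element with a nonsingular second vector gives a non-orthogonal adjacent pair. -/
theorem nonOrthAdj_of_has (hP : Pre τ QK Q H) (h2 : (2 : K) ≠ 0) {v w : V} (hv : QK v = 0)
    (hv0 : v ≠ 0) (hvw : polar QK v w = 0) (hw : Q w ≠ 0) (h : Has Q H v w) :
    NonOrthAdj QK Q H := by
  have hT := hP.tr
  have hQw : QK w ≠ 0 := by
    intro h0
    apply hw
    rw [hT.eq, h0, map_zero]
  obtain ⟨v'', hyp''⟩ := Cfsg.Agent.LieClassical.OrthTrans.exists_hyp hP.nondeg hv hv0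
  set c := -(polar QK w v'' * (2 * QK w)⁻¹) with hc
  set e := -(c * polar QK w v'' + c * c * QK w) with he
  set v' := v'' + c • w + e • v with hv'def
  have h2w : 2 * QK w ≠ 0 := mul_ne_zero h2 hQw
  have hwv : polar QK w v = 0 := by rw [polar_comm]; exact hvw
  have hwv' : polar QK w v' = 0 := by
    rw [hv'def, polar_add_right, polar_add_right, polar_smul_right, polar_smul_right, hwv,
      polar_self', hc]
    simp only [smul_eq_mul, mul_zero, add_zero]
    field_simp
    ring
  have hvv' : polar QK v v' = 1 := by
    rw [hv'def, polar_add_right, polar_add_right, polar_smul_right, polar_smul_right, hyp''.pair,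
      hvw, polar_self_of_sing hv]
    simp
  have hv' : QK v' = 0 := by
    rw [hv'def, Q_add, Q_add, QuadraticMap.map_smul, QuadraticMap.map_smul, hyp''.right, hv,
      polar_smul_right, polar_smul_right, polar_add_left, polar_smul_left, hyp''.pair', hwv,
      polar_comm QK v'' w, he]
    simp only [smul_eq_mul]
    ring
  have hv'0 : v' ≠ 0 := by
    intro h0
    rw [h0, polar_zero_right] at hvv'
    exact zero_ne_one hvv'
  obtain ⟨hz, hzw, hmem⟩ := h
  set s := siegel Q v w hz hzw with hs
  have hsapp : ∀ k : K, s (k • v') = k • v' + τ k • (w - Q w • v) := by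
    intro k
    have h1 : polar Q v (k • v') = τ k := by
      rw [hT.pol, polar_smul_right, hvv', smul_eq_mul, mul_one]
    have h3 : polar Q w (k • v') = 0 := by
      rw [hT.pol, polar_smul_right, hwv', smul_zero, map_zero]
    rw [hs, siegel_apply, h1, h3]
    module
  obtain ⟨k₀, hk₀⟩ := exists_tau_eq hT.ne 1
  have hX := isPoint_line (F := F) (H := H) hv' hv'0
  refine ⟨line F K v', (line F K v').map (s : V →ₗ[F] V), hX, hX.map hmem, ?_, k₀ • v',
    smul_mem_line _ _, s (k₀ • v'), ⟨k₀ • v', smul_mem_line _ _, rfl⟩, ?_⟩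
  · -- the intersection contains the kernel of `τ`
    let Z : Submodule F V := (LinearMap.ker τ).map ((LinearMap.toSpanSingleton K V v').restrictScalars F)
    have hZ : Z ≤ line F K v' ⊓ (line F K v').map (s : V →ₗ[F] V) := by
      rintro _ ⟨k, hk, rfl⟩
      have hk' : τ k = 0 := hk
      refine ⟨smul_mem_line k v', k • v', smul_mem_line k v', ?_⟩
      show s (k • v') = k • v'
      rw [hsapp, hk', zero_smul, add_zero]
    have h1 : Module.finrank F Z = Module.finrank F (LinearMap.ker τ) := by
      refine (Submodule.equivMapOfInjective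
        ((LinearMap.toSpanSingleton K V v').restrictScalars F) ?_ (LinearMap.ker τ)).finrank_eq.symm
      intro a b hab
      exact smul_left_injective K hv'0 hab
    have h3 := LinearMap.finrank_range_add_finrank_ker τ
    have h4 : Module.finrank F (LinearMap.range τ) ≤ 1 := by
      refine le_trans (Submodule.finrank_le _) ?_
      rw [Module.finrank_self]
    have h5 := Submodule.finrank_mono hZ
    omega
  · rw [hsapp, hk₀, one_smul, polar_add_right, polar_sub_right, polar_smul_right]
    have h1 : polar Q (k₀ • v') (k₀ • v') = 0 := by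
      rw [hT.pol, polar_smul_left, polar_smul_right, polar_self_of_sing hv']
      simp
    have h3 : polar Q (k₀ • v') w = 0 := by
      rw [hT.pol, polar_smul_left, polar_comm, hwv', smul_zero, map_zero]
    have h4 : polar Q (k₀ • v') v = 1 := by
      rw [hT.pol, polar_smul_left, polar_comm, hvv', smul_eq_mul, mul_one, hk₀]
    rw [h1, h3, h4]
    simpa using hw

/-- An isometry trivial on the orthogonal of a singular vector is trivial. -/
theorem eq_one_of_trivial (hQ : Nondeg Q) {z : V} (hz : Q z = 0) {t : V ≃ₗ[F] V} (ht : t ∈ O Q) (htf : ∀ x, polar Q z x = 0 → t x = x) : t = 1 := by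
  have hmem : ∀ x, ∃ c : F, t x - x = c • z := by
    intro x
    have h1 : t x - x ∈ perp Q (perp Q (Submodule.span F {z})) := by
      refine mem_perp.2 fun y hy => ?_
      have hzy : polar Q z y = 0 := mem_perp.1 hy z (Submodule.mem_span_singleton_self z)
      rw [polar_sub_right]
      nth_rewrite 1 [← htf y hzy]
      rw [polar_map ht, sub_self]
    rw [perp_perp hQ] at h1
    obtain ⟨c, hc⟩ := Submodule.mem_span_singleton.1 h1
    exact ⟨c, hc.symm⟩
  ext x
  show t x = x
  by_cases hx : polar Q z x = 0
  · exact htf x hx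
  obtain ⟨c, hc⟩ := hmem x
  have e : t x = x + c • z := by rw [← hc]; abel
  have h1 : Q (x + c • z) = Q x := by rw [← e]; exact ht x
  rw [Q_add, QuadraticMap.map_smul, hz, smul_zero, add_zero, polar_smul_right, polar_comm,
    smul_eq_mul, add_eq_left] at h1
  have h3 : c = 0 := (mul_eq_zero.1 h1).resolve_right hx
  rw [e, h3, zero_smul, add_zero]

/-- **Overgroups of `Ω(V, QK)`, `dim_K V = 4`, degree `2`, no totally singular `K`-plane.** -/
theorem main_two [Finite F] [Finite K] (hP : PreC τ QK Q H) (h2F : (2 : F) ≠ 0)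
    (hd : Module.finrank K V = 4) (hr : Module.finrank F K = 2)
    (hanis : ∀ v y : V, QK v = 0 → v ≠ 0 → polar QK v y = 0 → QK y = 0 → y ∈ line F K v)
    (hH : ¬ ∀ g ∈ H, NormK K g) : E Q ≤ H := by
  have h2 : (2 : K) ≠ 0 := by
    intro h0
    apply h2F
    apply (algebraMap F K).injective
    rw [map_ofNat, map_zero]
    exact h0
  have hT := hP.tr
  have hPre := hP.pre h2
  have hQ : Nondeg Q := hT.nondeg hP.nondeg
  have : FiniteDimensional K V := FiniteDimensional.right F K V
  have hdim : Module.finrank F V = 8 := by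
    rw [← Module.finrank_mul_finrank F K V, hd, hr]
  push Not at hH
  obtain ⟨g, hg, hgK⟩ := hH
  obtain ⟨v₀, hv₀0, hv₀⟩ := sing_of_three (QK := QK) (by omega)
  obtain ⟨v₁, hyp⟩ := Cfsg.Agent.LieClassical.OrthTrans.exists_hyp hP.nondeg hv₀ hv₀0
  obtain ⟨v, k, hv, hv0, hk⟩ := exists_not_line hT hP.nondeg (by omega) h2 hyp (hP.hHO hg) hgK
  have hY : IsPoint QK H ((line F K v).map (g : V →ₗ[F] V)) := (isPoint_line hv hv0).map hg
  have h1 : Adj QK H 1 := adj_one hPre (by omega) h2 hY (x := g v) (y := g (k • v))
    ⟨v, self_mem_line v, rfl⟩ ⟨k • v, smul_mem_line k v, rfl⟩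
    (fun h0 => hv0 (g.injective (by rw [h0, map_zero]))) hk
  obtain ⟨X, Y, hX, hY, hne, hint⟩ := h1
  obtain ⟨g, hg, v, hv, hv0, e, hvY, hne'⟩ := exists_line_pair hX hne (by omega)
  have hint' : 1 ≤ Module.finrank F (line F K v ⊓ Y.map (g : V →ₗ[F] V) : Submodule F V) := by
    rw [← e, finrank_map_inf]
    exact hint
  have hY' : IsPoint QK H (Y.map (g : V →ₗ[F] V)) := hY.map hg
  refine (setup_of_four hP h2 (by omega) (by omega)).of_nonOrthAdj h2F ?_
  by_cases horth : ∀ y ∈ Y.map (g : V →ₗ[F] V), polar QK v y = 0
  · obtain ⟨y, hyY, hyX⟩ : ∃ y ∈ Y.map (g : V →ₗ[F] V), y ∉ line F K v := by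
      by_contra hcon
      push Not at hcon
      exact hne' (hY'.eq_of_le (isPoint_line hv hv0) hcon).symm
    have hvy := horth y hyY
    have hQy : QK y ≠ 0 := fun h0 => hyX (hanis v y hv hv0 hvy h0)
    have hYs := hY'.sing hPre
    set Y' := Y.map (g : V →ₗ[F] V) with hY'def
    set Z : Submodule F V := line F K v ⊓ Y' with hZ
    have hyZ : y ∉ Z := fun h => hyX h.1
    have hspy := exists_sub_mem (X := Y') (Z := Z) inf_le_right hyY hyZ
      (by rw [hY'.finrank, hr]; omega)
    obtain ⟨a, ha, haZ⟩ : ∃ a ∈ line F K v, a ∉ Z := by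
      by_contra hcon
      push Not at hcon
      have hle : line F K v ≤ Y' := fun x hx => (hcon x hx).2
      have := (isPoint_line (H := H) hv hv0).eq_of_le hY' hle
      rw [← this] at hyY
      exact hyX hyY
    have hspa := exists_sub_mem (X := line F K v) (Z := Z) inf_le_left ha haZ
      (by rw [finrank_line hv0, hr]; omega)
    have hZdim : Module.finrank F Z = 1 := by
      have h1 : Z < line F K v :=
        lt_of_le_of_ne inf_le_left fun h => haZ (by rw [h]; exact ha)
      have := Submodule.finrank_lt_finrank_of_lt h1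
      rw [finrank_line hv0] at this
      omega
    have hdd : 2 * Module.finrank F Z + 5 ≤ Module.finrank F V := by omega
    obtain ⟨z₀, hz₀, hz₀0, hz, hu, t, htO, htf, hm⟩ := orth_adj hPre h2 hv hv0 (hY'.isPt hPre) hYs
      (inf_le_left : Z ≤ line F K v) inf_le_right ha haZ hspa hyY hyZ hspy hvy hQy hdd
    have hZspan : Submodule.span F {z₀} = Z := by
      apply Submodule.eq_of_le_of_finrank_eq
      · rw [Submodule.span_singleton_le_iff_mem]
        exact hz₀
      · rw [finrank_span_singleton hz₀0, hZdim]
    have ht1 : t = 1 := by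
      apply eq_one_of_trivial hQ hz htO
      intro x hx
      apply htf
      intro z hz
      have hz' : z ∈ Submodule.span F {z₀} := by rw [hZspan]; exact hz
      obtain ⟨c, rfl⟩ := Submodule.mem_span_singleton.1 hz'
      rw [polar_smul_left, hx, smul_zero]
    rw [ht1, mul_one] at hm
    have hHas : Has Q H z₀ y := by
      have h3 : Has Q H z₀ (-y) := ⟨hz, hu, hm⟩
      have h4 := h3.neg
      rwa [neg_neg] at h4
    -- the vector `z₀`
    obtain ⟨k₁, hk₁⟩ := mem_line.1 hz₀.1
    have hk₁0 : k₁ ≠ 0 := by
      rintro rfl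
      rw [zero_smul] at hk₁
      exact hz₀0 hk₁.symm
    have hz₀s : QK z₀ = 0 := by rw [← hk₁, QuadraticMap.map_smul, hv, smul_zero]
    have hz₀y : polar QK z₀ y = 0 := by rw [← hk₁, polar_smul_left, hvy, smul_zero]
    -- the component of `y`
    obtain ⟨z', hyp'⟩ := Cfsg.Agent.LieClassical.OrthTrans.exists_hyp hP.nondeg hz₀s hz₀0
    set l := polar QK z' y with hl
    set a := y - l • z₀ with hadef
    have hza : polar QK z₀ a = 0 := by
      rw [hadef, polar_sub_right, polar_smul_right, hz₀y, hyp'.polar_left, smul_zero, sub_zero]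
    have hz'a : polar QK z' a = 0 := by
      rw [hadef, polar_sub_right, polar_smul_right, hyp'.pair', smul_eq_mul, mul_one, sub_self]
    have hya : y = a + l • z₀ := by rw [hadef]; abel
    have hQa : QK a = QK y := by
      rw [hya, Q_add, QuadraticMap.map_smul, hz₀s, polar_smul_right, polar_comm, hza]
      simp
    have ha0 : QK a ≠ 0 := by rw [hQa]; exact hQy
    -- an orthogonal vector
    obtain ⟨a', ha'0, ha'⟩ := exists_perp_ne (Q := QK) ![z₀, z', a] (by omega)
    have hza' : polar QK z₀ a' = 0 := ha' 0
    have hz'a' : polar QK z' a' = 0 := ha' 1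
    have haa' : polar QK a a' = 0 := ha' 2
    have hno : ∀ x, polar QK z₀ x = 0 → polar QK z' x = 0 → QK x = 0 → x = 0 := by
      intro x h3 h4 h5
      obtain ⟨k, hk⟩ := mem_line.1 (hanis z₀ x hz₀s hz₀0 h3 h5)
      rw [← hk, polar_smul_right, hyp'.pair', smul_eq_mul, mul_one] at h4
      rw [← hk, h4, zero_smul]
    have hQa' : QK a' ≠ 0 := fun h0 => ha'0 (hno a' hza' hz'a' h0)
    set d := QK a' * (QK a)⁻¹ with hddef
    have hd0 : d ≠ 0 := mul_ne_zero hQa' (inv_ne_zero ha0)
    have hda : QK a' = d * QK a := by rw [hddef, mul_assoc, inv_mul_cancel₀ ha0, mul_one]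
    have hdsq : ∀ s : K, s * s ≠ -d := by
      intro s hs
      have h3 : QK (s • a + a') = 0 := by
        rw [Q_add, QuadraticMap.map_smul, polar_smul_left, haa', hda, smul_eq_mul]
        linear_combination QK a * hs
      have h4 := hno _ (by rw [polar_add_right, polar_smul_right, hza, hza', smul_zero, add_zero])
        (by rw [polar_add_right, polar_smul_right, hz'a, hz'a', smul_zero, add_zero]) h3
      have h5 : polar QK a (s • a + a') = 0 := by rw [h4, polar_zero_right]
      rw [polar_add_right, polar_smul_right, haa', add_zero, polar_self', smul_eq_mul] at h5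
      have h6 : s = 0 := (mul_eq_zero.1 h5).resolve_right (mul_ne_zero h2 ha0)
      rw [h6, zero_smul, zero_add] at h4
      exact ha'0 h4
    have hd1 : 1 + d ≠ 0 := by
      intro h0
      apply hdsq 1
      linear_combination h0
    set α := (1 - d) / (1 + d) with hα
    set β := 2 / (1 + d) with hβ
    have hαβ : α * α + d * (β * β) = 1 := by
      rw [hα, hβ]
      field_simp
      ring
    have hα1 : (α + 1) * d = 1 - α := by
      rw [hα]
      field_simp
      ring
    have hα2 : α + 1 ≠ 0 := by
      intro h0
      have h3 : α + 1 = 2 / (1 + d) := by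
        rw [hα]
        field_simp
        ring
      rw [h3] at h0
      exact (div_ne_zero h2 hd1) h0
    have hαF : ∀ c : F, α * α ≠ algebraMap F K c := by
      intro c hc
      obtain ⟨s, hs⟩ := isSquare_of_deg_two h2 hr (c - 1)
      rw [map_sub, map_one, ← hc] at hs
      have hα3 : α - 1 ≠ 0 := by
        intro h0
        have : (α + 1) * d = 0 := by rw [hα1]; linear_combination -h0
        exact (mul_ne_zero hα2 hd0) this
      have hs0 : s ≠ 0 := by
        rintro rfl
        have : (α - 1) * (α + 1) = 0 := by linear_combination hs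
        exact (mul_ne_zero hα3 hα2) this
      apply hdsq ((α - 1) / s)
      have h3 : (α - 1) / s * ((α - 1) / s) = (α - 1) * (α - 1) / (s * s) := by field_simp
      rw [h3, ← hs, div_eq_iff (by rw [hs]; exact mul_ne_zero hs0 hs0)]
      linear_combination (α - 1) * hα1
    set b := α • a + β • a' with hbdef
    have hQb : QK b = QK a := by
      rw [hbdef, Q_add, QuadraticMap.map_smul, QuadraticMap.map_smul, polar_smul_left,
        polar_smul_right, haa', hda]
      simp only [smul_eq_mul]
      linear_combination QK a * hαβ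
    have hb : QK b ≠ 0 := by rw [hQb]; exact ha0
    set g₁ := refl QK a ha0 * refl QK b hb with hg₁
    have hg₁C : g₁ ∈ ⁅O QK, O QK⁆ := refl_mul_refl_mem_comm h2 ha0 hb hQb.symm
    have hg₁H : (rs g₁ : V ≃ₗ[F] V) ∈ H := hP.hE _ hg₁C
    have hg₁z : g₁ z₀ = z₀ := by
      show refl QK a ha0 (refl QK b hb z₀) = z₀
      have h3 : polar QK b z₀ = 0 := by
        rw [polar_comm, hbdef, polar_add_right, polar_smul_right, polar_smul_right, hza, hza']
        simp
      have h4 : refl QK b hb z₀ = z₀ := by rw [refl_apply, h3]; simp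
      rw [h4, refl_apply, polar_comm, hza]
      simp
    have hba : polar QK b a = 2 * α * QK a := by
      rw [hbdef, polar_add_left, polar_smul_left, polar_smul_left, polar_comm QK a' a, haa',
        polar_self', smul_eq_mul]
      simp
      ring
    have hpg : polar QK a (g₁ a) = (4 * (α * α) - 2) * QK a := by
      have h3 : polar QK a b = 2 * α * QK a := by rw [polar_comm]; exact hba
      show polar QK a (refl QK a ha0 (refl QK b hb a)) = _
      rw [refl_apply, refl_apply, hQb, hba]
      simp only [polar_sub_right, polar_smul_right, h3, polar_self', smul_eq_mul]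
      field_simp
      ring
    have hHas2 : Has Q H z₀ (g₁ y) := by
      have h3 := hHas.map (hP.hHO hg₁H) hg₁H
      rwa [rs_apply, rs_apply, hg₁z] at h3
    have hHas3 := hHas.add hHas2
    have hg₁y : g₁ y = g₁ a + l • z₀ := by rw [hya, map_add, map_smul, hg₁z]
    have hzga : polar QK z₀ (g₁ a) = 0 := by
      nth_rewrite 1 [← hg₁z]
      rw [polar_map (comm_le_O hg₁C)]
      exact hza
    refine nonOrthAdj_of_has hPre h2 hz₀s hz₀0 ?_ ?_ hHas3
    · rw [polar_add_right, hz₀y, hg₁y, polar_add_right, hzga, polar_smul_right, hyp'.polar_left]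
      simp
    · have h3 : Q y = 0 := hYs y hyY
      have h4 : Q (g₁ y) = 0 := by
        have := hP.hHO hg₁H y
        rw [rs_apply] at this
        rw [this]
        exact h3
      have hτy : τ (QK a) = 0 := by rw [hQa, ← hT.eq]; exact h3
      have h5 : polar QK y (g₁ y) = (4 * (α * α) - 2) * QK a := by
        rw [hg₁y, polar_add_right, polar_smul_right, polar_comm QK y z₀, hz₀y, hya, polar_add_left,
          polar_smul_left, hzga, hpg]
        simp
      rw [Q_add, h3, h4, hT.pol, h5, zero_add, zero_add]
      intro h0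
      -- `τ (α² QK a) = 0`
      have h6 : τ ((α * α) * QK a) = 0 := by
        have e1 : (4 * (α * α) - 2) * QK a = (4 : F) • ((α * α) * QK a) - (2 : F) • QK a := by
          rw [Algebra.smul_def, Algebra.smul_def, map_ofNat, map_ofNat]
          ring
        rw [e1, map_sub, map_smul, map_smul, hτy, smul_zero, sub_zero, smul_eq_mul] at h0
        have h4F : (4 : F) ≠ 0 := by
          have : (4 : F) = 2 * 2 := by norm_num
          rw [this]
          exact mul_ne_zero h2F h2F
        exact (mul_eq_zero.1 h0).resolve_left h4F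
      -- the kernel of `τ` is a line
      have h7 : LinearMap.ker τ = Submodule.span F {QK a} := by
        symm
        apply Submodule.eq_of_le_of_finrank_eq
        · rw [Submodule.span_singleton_le_iff_mem]
          exact hτy
        · rw [finrank_span_singleton ha0]
          have h8 := LinearMap.finrank_range_add_finrank_ker τ
          have h9 : Module.finrank F (LinearMap.range τ) = 1 := by
            have : LinearMap.range τ = ⊤ := by
              rw [LinearMap.range_eq_top]
              intro c
              exact exists_tau_eq hT.ne c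
            rw [this, finrank_top, Module.finrank_self]
          omega
      have h8 : (α * α) * QK a ∈ LinearMap.ker τ := h6
      rw [h7] at h8
      obtain ⟨c, hc⟩ := Submodule.mem_span_singleton.1 h8
      apply hαF c
      rw [Algebra.smul_def] at hc
      exact (mul_right_cancel₀ ha0 hc).symm
  · push Not at horth
    obtain ⟨y, hy, hvy⟩ := horth
    obtain ⟨κ, hκ⟩ : ∃ κ : K, τ (κ * polar QK v y) ≠ 0 := by
      by_contra hcon
      push Not at hcon
      exact hvy (tau_ext hT.ne hcon)
    refine ⟨line F K v, _, isPoint_line hv hv0, hY', by omega, κ • v, smul_mem_line κ v, y, hy, ?_⟩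
    rw [hT.pol, polar_smul_left, smul_eq_mul]
    exact hκ

end Fin

end Cfsg.Agent.H925.Ext
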